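import Cfsg.Agent.Srg.HSD
import Cfsg.Agent.S0410

/-! Uniqueness of the strongly regular graph with parameters (100, 22, 0, 6). -/

set_option autoImplicit false

namespace CF.Srg

open Finset Cfsg
open scoped _root_.Classical

variable {Ω : Type*} [Fintype Ω] {Γ : SimpleGraph Ω} {k l μ : ℕ}

section
variable {α : Type*} (B : Set (Finset α)) (a a' : α) (b b' : B)
theorem pbr1 : pointBlockRel B none none ↔ False := Iff.rfl
theorem pbr2 : pointBlockRel B none (some (.inl a)) ↔ True := Iff.rfl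
theorem pbr3 : pointBlockRel B none (some (.inr b)) ↔ False := Iff.rfl
theorem pbr4 : pointBlockRel B (some (.inl a)) none ↔ False := Iff.rfl
theorem pbr5 : pointBlockRel B (some (.inl a)) (some (.inl a')) ↔ False := Iff.rfl
theorem pbr6 : pointBlockRel B (some (.inl a)) (some (.inr b)) ↔ a ∈ b.1 := Iff.rfl
theorem pbr7 : pointBlockRel B (some (.inr b)) none ↔ False := Iff.rfl
theorem pbr8 : pointBlockRel B (some (.inr b)) (some (.inl a)) ↔ False := Iff.rfl
theorem pbr9 : pointBlockRel B (some (.inr b)) (some (.inr b')) ↔ Disjoint b.1 b'.1 := Iff.rfl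
end

theorem av_ind (p : Ω → Prop) [DecidablePred p] (x : Ω) :
    av Γ (fun y => if p y then (1 : ℤ) else 0) x = #{y | Γ.Adj x y ∧ p y} := by
  rw [av, sum_boole, filter_filter]

theorem SR.sum_av {R : Type*} [CommRing R] (h : SR Γ k l μ) (v : Ω → R) : ∑ x, av Γ v x = k * ∑ x, v x := by
  simp only [av, sum_filter]
  rw [sum_comm, mul_sum]
  refine sum_congr rfl fun y _ => ?_
  simp only [Γ.adj_comm _ y]
  rw [← sum_filter, sum_const, h.deg', nsmul_eq_mul]

theorem SR.no_tri (h : SR Γ k 0 μ) {x y z : Ω} (a : Γ.Adj x y) (b : Γ.Adj x z) : ¬ Γ.Adj y z := fun c => by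
  have := card_eq_zero.1 (h.adj' a)
  exact notMem_empty z (this ▸ mem_filter.2 ⟨mem_univ _, b, c⟩)

namespace HS

variable (h : SR Γ 22 0 6) (hn : Fintype.card Ω = 100)
include h hn

theorem three {v y z : Ω} (a : v ≠ y) (a' : ¬ Γ.Adj v y) (b : z ≠ v) (b' : ¬ Γ.Adj v z) (c : z ≠ y)
    (c' : ¬ Γ.Adj y z) : #{x | Γ.Adj z x ∧ Γ.Adj v x ∧ Γ.Adj y x} = 2 := by
  set w : Ω → ℤ := fun x => if Γ.Adj v x ∧ Γ.Adj y x then 1 else 0 with hw
  have s1 : ∑ x, w x = 6 := by rw [sum_boole, h.nadj' a a']; rfl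
  have z0 : ∀ x, Γ.Adj v x ∨ Γ.Adj y x → av Γ w x = 0 := fun x hx => by
    rw [av_ind, Nat.cast_eq_zero, card_eq_zero, filter_eq_empty_iff]
    rintro t - ⟨e1, e2, e3⟩
    exact hx.elim (fun e => h.no_tri e e2 e1) fun e => h.no_tri e e3 e1
  have s2 := h.sum_sq w
  have s3 : ∑ x, w x ^ 2 = 6 := s1 ▸ sum_congr rfl fun x _ => by simp only [hw]; split_ifs <;> rfl
  have s4 : ∑ x, w x * av Γ w x = 0 := sum_eq_zero fun x _ => by
    by_cases e : Γ.Adj v x ∧ Γ.Adj y x
    · rw [z0 x (Or.inl e.1), mul_zero]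
    · simp only [hw, if_neg e, zero_mul]
  have s5 : ∑ x, (av Γ w x - 2) ^ 2 = 184 := by
    simp only [sub_sq, sum_add_distrib, sum_sub_distrib, ← sum_mul, ← mul_sum, s2, s1, s3, s4, h.sum_av, sum_const,
      card_univ, hn]
    norm_num
  let S : Finset Ω := insert v (insert y ((univ.filter fun x => Γ.Adj v x) ∪ univ.filter fun x => Γ.Adj y x))
  have s6 : ∑ x ∈ S, (av Γ w x - 2) ^ 2 = 184 := by
    have c1 := card_union_add_card_inter (univ.filter fun x => Γ.Adj v x) (univ.filter fun x => Γ.Adj y x)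
    rw [← filter_and, h.deg', h.deg', h.nadj' a a'] at c1
    rw [sum_insert (by simp [a, Γ.adj_comm y, a']), sum_insert (by simp [a']), sum_congr rfl (g := fun _ => 4)
      fun x hx => by rw [z0 x (by simpa using hx)]; rfl, sum_const, show #(_ ∪ _) = 38 by omega, av_ind, av_ind]
    simp only [and_self_left, and_left_comm (a := Γ.Adj y _), and_self, h.nadj' a a']
    norm_num
  rw [← s6, ← sum_add_sum_compl S, add_eq_left] at s5
  have := (sum_eq_zero_iff_of_nonneg fun _ _ => sq_nonneg _).1 s5 z (by simp [S, b, b', c, c'])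
  rw [pow_eq_zero_iff two_ne_zero, av_ind, sub_eq_zero] at this
  exact_mod_cast this

omit h hn in
/-- the neighbours of `y` among those of `v` -/
noncomputable def blk (Γ : SimpleGraph Ω) (v y : Ω) : Finset (Γ.neighborSet v) := {x | Γ.Adj y x}

omit h hn in
theorem card_sub (v : Ω) (p : Ω → Prop) [DecidablePred p] : #{x : Γ.neighborSet v | p x} = #{x | Γ.Adj v x ∧ p x} := by
  rw [← card_map (Function.Embedding.subtype _)]
  congr 1; ext; simp [and_comm]

omit h hn in
/-- the blocks -/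
def Blk (Γ : SimpleGraph Ω) (v : Ω) : Set (Finset (Γ.neighborSet v)) := blk Γ v '' {y | v ≠ y ∧ ¬ Γ.Adj v y}

theorem card_inter {v y z : Ω} (a : v ≠ y ∧ ¬ Γ.Adj v y) (b : v ≠ z ∧ ¬ Γ.Adj v z) :
    #(blk Γ v y ∩ blk Γ v z) = if y = z then 6 else if Γ.Adj y z then 0 else 2 := by
  rw [blk, blk, ← filter_and, card_sub v fun x => Γ.Adj y x ∧ Γ.Adj z x]
  split_ifs with c d
  · subst c; simp only [and_self, h.nadj' a.1 a.2]
  · rw [card_eq_zero, filter_eq_empty_iff]
    exact fun t _ e => h.no_tri d e.2.1 e.2.2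
  · rw [← three h hn a.1 a.2 b.1.symm b.2 (Ne.symm c) d]
    congr 1; ext; simp only [mem_filter]; tauto

theorem blk_inj (v : Ω) : Set.InjOn (blk Γ v) {y | v ≠ y ∧ ¬ Γ.Adj v y} := fun y a z b e => by
  have c1 := card_inter h hn a b
  have c2 := card_inter h hn a a
  rw [← e, c2, if_pos rfl] at c1
  split_ifs at c1 <;> omega

omit hn in
theorem card_nb (v : Ω) : Fintype.card (Γ.neighborSet v) = 22 := by
  rw [← h.deg' v, ← card_univ, ← filter_true (univ : Finset (Γ.neighborSet v)), card_sub v fun _ => True]; simp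

theorem steiner (v : Ω) : IsSteinerSystem 3 6 (Blk Γ v) := by
  have c6 : ∀ y, v ≠ y ∧ ¬ Γ.Adj v y → #(blk Γ v y) = 6 := fun y a => by simpa using card_inter h hn a a
  have un : ∀ y, v ≠ y ∧ ¬ Γ.Adj v y → ∀ z, v ≠ z ∧ ¬ Γ.Adj v z → ∀ s, #s = 3 → s ⊆ blk Γ v y → s ⊆ blk Γ v z →
      y = z := fun y a z b s hs e e' => by
    have c1 := card_le_card (subset_inter e e')
    rw [card_inter h hn a b, hs] at c1
    split_ifs at c1 <;> first | assumption | omega
  refine ⟨by rintro _ ⟨y, a, rfl⟩; exact c6 y a, fun s hs => ?_⟩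
  let R : Finset Ω := {y | v ≠ y ∧ ¬ Γ.Adj v y}
  have cR : #R = 77 := by
    have : R = (insert v (univ.filter fun x => Γ.Adj v x))ᶜ := by ext; simp [R, eq_comm]
    rw [this, card_compl, card_insert_of_notMem (by simp), h.deg', hn]
  have e : R.biUnion (fun y => powersetCard 3 (blk Γ v y)) = powersetCard 3 univ := by
    refine eq_of_subset_of_card_le (fun t ht => ?_) ?_
    · obtain ⟨y, -, e⟩ := mem_biUnion.1 ht
      exact mem_powersetCard_univ.2 (mem_powersetCard.1 e).2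
    · rw [card_biUnion fun y a z b c => disjoint_left.2 fun t e e' => c (un y (mem_filter.1 a).2 z (mem_filter.1 b).2 t
        (mem_powersetCard.1 e).2 (mem_powersetCard.1 e).1 (mem_powersetCard.1 e').1),
        sum_congr rfl (g := fun _ => 20) fun y a => by rw [card_powersetCard, c6 y (mem_filter.1 a).2]; rfl,
        sum_const, cR, card_powersetCard, card_univ, card_nb h]
      decide
  obtain ⟨y, a, e'⟩ := mem_biUnion.1 (e ▸ mem_powersetCard_univ.2 hs)
  refine ⟨_, ⟨⟨y, (mem_filter.1 a).2, rfl⟩, (mem_powersetCard.1 e').1⟩, ?_⟩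
  rintro _ ⟨⟨z, b, rfl⟩, c⟩
  rw [un z b y (mem_filter.1 a).2 s hs c (mem_powersetCard.1 e').1]

theorem iso_pb (v : Ω) : Nonempty (pointBlockGraph (Blk Γ v) ≃g Γ) := by
  let e := (blk_inj h hn v).bijOn_image.equiv
  let f : Option (Γ.neighborSet v ⊕ Blk Γ v) → Ω := fun x => x.elim v (Sum.elim (↑) fun b => e.symm b)
  have hb : ∀ b : Blk Γ v, ∃ y, (v ≠ y ∧ ¬ Γ.Adj v y) ∧ (b : Finset _) = blk Γ v y ∧ f (some (.inr b)) = y := fun b =>
    ⟨_, (e.symm b).2, (congrArg Subtype.val (e.apply_symm_apply b)).symm, rfl⟩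
  have h0 : f none = v := rfl
  have h1 : ∀ a, f (some (.inl a)) = a := fun _ => rfl
  refine ⟨⟨Equiv.ofBijective f ⟨?_, fun x => ?_⟩, ?_⟩⟩
  · rintro (_ | a | b) (_ | a' | b') c
    · rfl
    · exact absurd c a'.2.ne
    · exact absurd c (e.symm b').2.1
    · exact absurd c.symm a.2.ne
    · rw [Subtype.ext c]
    · exact absurd (show Γ.Adj v (f (some (.inr b'))) from c ▸ show Γ.Adj v (f (some (.inl a))) from a.2) (e.symm b').2.2
    · exact absurd c.symm (e.symm b).2.1
    · exact absurd (show Γ.Adj v (f (some (.inr b))) from c ▸ show Γ.Adj v (f (some (.inl a'))) from a'.2) (e.symm b).2.2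
    · rw [e.symm.injective (Subtype.ext c)]
  · by_cases c : v = x
    · exact ⟨none, c⟩
    · by_cases d : Γ.Adj v x
      · exact ⟨some (.inl ⟨x, d⟩), rfl⟩
      · exact ⟨some (.inr (e ⟨x, c, d⟩)), congrArg Subtype.val (e.symm_apply_apply _)⟩
  · intro x y
    show Γ.Adj (f x) (f y) ↔ _
    rcases x with _ | a | b <;> rcases y with _ | a' | b' <;>
      simp only [pointBlockGraph, SimpleGraph.fromRel_adj, pbr1, pbr2, pbr3, pbr4, pbr5, pbr6, pbr7, pbr8, pbr9, h0, h1]
    · simp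
    · exact iff_of_true a'.2 (by simp)
    · exact iff_of_false (e.symm b').2.2 (by simp)
    · simpa using a.2.symm
    · simpa using h.no_tri a.2 a'.2
    · obtain ⟨y, -, c, d⟩ := hb b'
      simp [c, d, blk, Γ.adj_comm]
    · exact iff_of_false (fun c => (e.symm b).2.2 (Γ.adj_symm c)) (by simp)
    · obtain ⟨y, -, c, d⟩ := hb b
      simp [c, d, blk]
    · obtain ⟨y, a, c, d⟩ := hb b
      obtain ⟨z, a', c', d'⟩ := hb b'
      have c1 := card_inter h hn a a'
      rw [d, d', c, c', disjoint_comm (a := blk Γ v z), or_self, disjoint_iff_inter_eq_empty, ← card_eq_zero, c1]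
      constructor
      · intro t; exact ⟨fun u => t.ne (by rw [← d, u, d']), by simp [t, t.ne]⟩
      · rintro ⟨-, t⟩; split_ifs at t <;> first | assumption | omega

end HS

theorem pb_iso {α β : Type*} [DecidableEq β] {B : Set (Finset α)} {B' : Set (Finset β)} (h : SetSystemIso B B') :
    Nonempty (pointBlockGraph B ≃g pointBlockGraph B') := by
  obtain ⟨e, rfl⟩ := h
  let e' := ((image_injective e.injective).injOn (s := B)).bijOn_image.equiv
  have h1 : ∀ b : B, (e' b : Finset β) = b.1.image e := fun _ => rfl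
  refine ⟨⟨(e.sumCongr e').optionCongr, ?_⟩⟩
  rintro (_ | a | b) (_ | a' | b') <;>
    simp [pointBlockGraph, SimpleGraph.fromRel_adj, pbr1, pbr2, pbr3, pbr4, pbr5, pbr6, pbr7, pbr8, pbr9, h1, disjoint_image e.injective]

/-- the block graph inside the point-block graph -/
noncomputable def bgIso {α : Type*} (B : Set (Finset α)) :
    blockGraph B ≃g (pointBlockGraph B).induce {y | none ≠ y ∧ ¬ (pointBlockGraph B).Adj none y} :=
  ⟨Equiv.ofBijective (fun b => ⟨some (.inr b), by simp [pointBlockGraph, pbr1, pbr2, pbr3, pbr4, pbr5, pbr6, pbr7, pbr8, pbr9]⟩)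
    ⟨fun b c e => by simpa using e, by
      rintro ⟨_ | a | b, h⟩
      · exact absurd rfl h.1
      · exact absurd (by simp [pointBlockGraph, pbr1, pbr2, pbr3, pbr4, pbr5, pbr6, pbr7, pbr8, pbr9]) h.2
      · exact ⟨b, rfl⟩⟩, by
    intro b c
    show (pointBlockGraph B).Adj (some (.inr b)) (some (.inr c)) ↔ _
    simp [pointBlockGraph, pbr1, pbr2, pbr3, pbr4, pbr5, pbr6, pbr7, pbr8, pbr9, blockGraph]⟩

namespace HS

theorem uniq {Ω' : Type*} [Fintype Ω'] {Γ' : SimpleGraph Ω'} (h : SR Γ 22 0 6) (hn : Fintype.card Ω = 100)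
    (h' : SR Γ' 22 0 6) (hn' : Fintype.card Ω' = 100) : Nonempty (Γ ≃g Γ') := by
  obtain ⟨v⟩ : Nonempty Ω := Fintype.card_pos_iff.1 (by omega)
  obtain ⟨v'⟩ : Nonempty Ω' := Fintype.card_pos_iff.1 (by omega)
  obtain ⟨a⟩ := iso_pb h hn v
  obtain ⟨b⟩ := iso_pb h' hn' v'
  obtain ⟨c⟩ := pb_iso (Cfsg.Agent.S0410.result (card_nb h v) (card_nb h' v') (steiner h hn v) (steiner h' hn' v'))
  exact ⟨(a.symm.trans c).trans b⟩

theorem mdl_of_sr (h : SR Γ 22 0 6) (hn : Fintype.card Ω = 100) : Mdl Γ row 100 :=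
  let ⟨e⟩ := uniq sr (Fintype.card_fin _) h hn
  mdl.of_iso e

theorem iso_row {α : Type*} [Fintype α] (hα : Fintype.card α = 22) {B : Set (Finset α)}
    (hB : IsSteinerSystem 3 6 B) : Nonempty (rowG row 100 ≃g pointBlockGraph B) := by
  obtain ⟨a⟩ := iso_pb sr (Fintype.card_fin _) 0
  obtain ⟨c⟩ := pb_iso (Cfsg.Agent.S0410.result (card_nb sr 0) hα (steiner sr (Fintype.card_fin _) 0) hB)
  exact ⟨a.symm.trans c⟩

/-- the second subconstituent -/
theorem second (h : SR Γ 22 0 6) (hn : Fintype.card Ω = 100) (v : Ω) :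
    SR (Γ.induce {y | v ≠ y ∧ ¬ Γ.Adj v y}) 16 0 4 := by
  have key : ∀ (p : Ω → Prop) [DecidablePred p], (∀ x, p x → v ≠ x) → {z : {y | v ≠ y ∧ ¬ Γ.Adj v y} | p z}.ncard + #{x | p x ∧ Γ.Adj v x} =
      #{x | p x} := fun p _ hp => by
    rw [← card_filter_add_card_filter_not (s := univ.filter p) (Γ.Adj v), filter_filter, filter_filter, add_comm,
      ← ncard_eq, ← ncard_eq (fun x => p x ∧ ¬ Γ.Adj v x), ← Set.ncard_image_of_injective _ Subtype.val_injective]
    congr 2; ext x; simp; tauto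
  refine ⟨fun x => ?_, fun x y a => ?_, fun x y a b => ?_⟩
  · have := key (Γ.Adj x) fun z e c => x.2.2 (c ▸ e.symm)
    rw [h.deg', h.nadj' x.2.1.symm fun c => x.2.2 c.symm] at this
    exact Nat.add_right_cancel this
  · have := key (fun z => Γ.Adj x z ∧ Γ.Adj y z) fun z e c => x.2.2 (c ▸ e.1.symm)
    rw [h.adj' (x := x) (y := y) a] at this
    exact Nat.eq_zero_of_add_eq_zero_right this
  · have := key (fun z => Γ.Adj x z ∧ Γ.Adj y z) fun z e c => x.2.2 (c ▸ e.1.symm)
    have a' : x.1 ≠ y := fun c => a (Subtype.ext c)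
    have t := three h hn a' b x.2.1 (fun c => x.2.2 c.symm) y.2.1 fun c => y.2.2 c.symm
    simp only [and_comm (a := Γ.Adj v _)] at t
    rw [h.nadj' a' b, t] at this
    exact Nat.add_right_cancel this

end HS

end CF.Srg
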