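import Cfsg.Agent.Srg.GQ

/-! Uniqueness of the strongly regular graph with parameters (77, 16, 0, 4). -/

set_option autoImplicit false

namespace CF.Srg.U77

open Finset Cfsg
open scoped _root_.Classical

variable {Ω : Type*} [Fintype Ω] {Γ : SimpleGraph Ω} {x y z z' : Ω} {S : Finset Ω}

/-- distinct and not adjacent -/
def Far (Γ : SimpleGraph Ω) (x y : Ω) : Prop := x ≠ y ∧ ¬ Γ.Adj x y

/-- the number of common neighbours -/
noncomputable def t (Γ : SimpleGraph Ω) (x z y : Ω) : ℕ := #{w | Γ.Adj y w ∧ Γ.Adj x w ∧ Γ.Adj z w}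

/-- the vector of the pair -/
noncomputable def U (Γ : SimpleGraph Ω) (x z y : Ω) : ℤ :=
  4 * (if y = x then 1 else 0) + 6 * (if y = z then 1 else 0) + 3 * if Γ.Adj x y ∧ Γ.Adj z y then 1 else 0

/-- its projection -/
noncomputable def W (Γ : SimpleGraph Ω) (x z : Ω) : Ω → ℤ := mv Γ 2 1 4 (U Γ x z)

theorem W_eq : W Γ x z y = 2 * U Γ x z y - (4 * (if Γ.Adj y x then 1 else 0) + 6 * (if Γ.Adj y z then 1 else 0) +
    3 * t Γ x z y) + 4 := by
  rw [W, mv, t, ← av_ind]
  simp only [av, U, sum_add_distrib, ← mul_sum, sum_ite_eq', mem_filter, mem_univ, true_and, one_mul]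

theorem dotU (f : Ω → ℤ) : ∑ y, U Γ x z y * f y = 4 * f x + 6 * f z + 3 * ∑ y with Γ.Adj x y ∧ Γ.Adj z y, f y := by
  simp only [U, add_mul, mul_assoc, sum_add_distrib, ← mul_sum, ite_mul, one_mul, zero_mul, sum_ite_eq', mem_univ,
    if_true, sum_filter]

theorem W1 (b : Far Γ x y) : W Γ x z y = 4 + 12 * (if y = z then 1 else 0) - 6 * (if Γ.Adj y z then 1 else 0) -
    3 * t Γ x z y := by
  rw [W_eq, U, if_neg b.1.symm, if_neg (mt And.left b.2), if_neg (mt Γ.adj_symm b.2)]; ring

theorem W_comm (a : Far Γ x z) (b : Far Γ x y) : W Γ x z y = W Γ x y z := by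
  rw [W1 a, W1 b, t, t]
  simp only [@eq_comm _ y z, Γ.adj_comm y z, and_left_comm (a := Γ.Adj y _), and_left_comm (a := Γ.Adj z _),
    and_comm (a := Γ.Adj y _)]

variable (h : SR Γ 16 0 4)
include h

theorem W0 (a : Far Γ x z) (b : ¬ Far Γ x y) : W Γ x z y = 0 := by
  rw [W_eq, U, t]
  by_cases e : x = y
  · subst e
    simp only [and_self_left, h.nadj' a.1 a.2]; simp [a.1, a.2]
  · have c : Γ.Adj x y := not_not.1 fun c => b ⟨e, c⟩
    rw [filter_false_of_mem fun w _ u => h.no_tri c u.2.1 u.1]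
    simp [c, c.symm, c.ne', show y ≠ z from fun u => a.2 (u ▸ c), Γ.adj_comm y z]

theorem W_self (a : Far Γ x z) : W Γ x z z = 4 := by
  rw [W1 a, t]
  simp only [and_left_comm (a := Γ.Adj z _), and_self, h.nadj' a.1 a.2]; simp

theorem far_of (a : Far Γ x z) (b : W Γ x z y ≠ 0) : Far Γ x y := not_not.1 fun c => b (W0 h a c)

theorem eigW (a : Far Γ x z) (y : Ω) : av Γ (W Γ x z) y = -6 * W Γ x z y := by
  have := dotU (Γ := Γ) (x := x) (z := z) fun _ => 1
  simp only [mul_one, sum_const, h.nadj' a.1 a.2] at this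
  rw [W, h.av_mv, mv, this]; push_cast; simp; ring

theorem dot (a : Far Γ x z) (b : Far Γ x z') : ∑ y, W Γ x z y * W Γ x z' y = 48 * W Γ x z' z := by
  rw [W, h.eig_dot (eigW h b) (by decide), dotU, W0 h b fun c => c.1 rfl,
    sum_eq_zero fun y u => W0 h b fun c => c.2 (mem_filter.1 u).2.1]
  ring

theorem sq (a : Far Γ x z) (b : Far Γ x z') (ε : ℤ) :
    ∑ y, (W Γ x z y + ε * W Γ x z' y) ^ 2 = 192 + 96 * ε * W Γ x z' z + ε ^ 2 * 192 := by
  have : ∀ y, (W Γ x z y + ε * W Γ x z' y) ^ 2 = W Γ x z y * W Γ x z y + 2 * ε * (W Γ x z y * W Γ x z' y) +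
    ε ^ 2 * (W Γ x z' y * W Γ x z' y) := fun y => by ring
  simp only [this, sum_add_distrib, ← mul_sum, dot h a a, dot h a b, dot h b b, W_self h a, W_self h b]; ring

theorem vals (a : Far Γ x z) (b : Far Γ x y) : W Γ x z y = 4 ∨ W Γ x z y = 1 ∨ W Γ x z y = -2 := by
  have c : ∀ ε, (0 : ℤ) ≤ _ := fun ε => sq h b a ε ▸ sum_nonneg fun y _ => sq_nonneg _
  have c1 := c 1
  have c2 := c (-1)
  have := W1 (z := z) b
  omega

theorem cls (a : Far Γ x z) (b : W Γ x z z' = 4) : W Γ x z' = W Γ x z := funext fun y => by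
  have := pow_eq_zero_iff two_ne_zero |>.1 ((sum_eq_zero_iff_of_nonneg fun _ _ => sq_nonneg _).1
    ((sq h (far_of h a (y := z') (by omega)) a (-1)).trans (by rw [b]; rfl)) y (mem_univ y))
  omega

theorem cls' (a : Far Γ x z) (b : W Γ x z z' = 4) (c : Far Γ x y) : W Γ x y z' = W Γ x y z := by
  rw [← W_comm (far_of h a (y := z') (by omega)) c, cls h a b, W_comm a c]

variable (hn : Fintype.card Ω = 77)
include hn

theorem card_far (x : Ω) : #{y | Far Γ x y} = 60 := by
  have : (univ.filter fun y => Far Γ x y) = (insert x (univ.filter fun y => Γ.Adj x y))ᶜ := ext fun y => by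
    simp only [mem_filter, mem_univ, true_and, mem_compl, mem_insert, not_or, @eq_comm _ y]; rfl
  rw [this, card_compl, card_insert_of_notMem (by simp), h.deg', hn]

theorem counts (a : Far Γ x z) : #{y | W Γ x z y = 4} = 4 ∧ #{y | W Γ x z y = 1} = 32 := by
  have e : ∀ α β γ δ : ℤ, ∀ f : ℤ → ℤ, f 0 = 0 → f 4 = α + δ → f 1 = β + δ → f (-2) = δ → ∑ y, f (W Γ x z y) =
      α * #{y | W Γ x z y = 4} + β * #{y | W Γ x z y = 1} + δ * 60 := fun α β γ δ f f0 f1 f2 f3 => by
    rw [show (60 : ℤ) = (60 : ℕ) from rfl, ← card_far h hn x]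
    simp only [← sum_boole, mul_sum, ← sum_add_distrib]
    refine sum_congr rfl fun y _ => ?_
    by_cases b : Far Γ x y
    · rcases vals h a b with c | c | c <;> simp [*]
    · simp [W0 h a b, *]
  have e1 := e 6 3 0 (-2) id rfl rfl rfl rfl
  have e2 := e 12 (-3) 0 4 (fun u => u * u) rfl rfl rfl rfl
  rw [dot h a a, W_self h a] at e2
  simp only [id, h.eig_sum (eigW h a) (by decide)] at e1
  omega

theorem hoff (c : Coc Γ S) (k : #S = 21) (y : Ω) : (#{w | Γ.Adj y w ∧ w ∈ S} : ℤ) = if y ∈ S then 0 else 6 := by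
  let χ : Ω → ℤ := fun y => if y ∈ S then 1 else 0
  have s1 : ∑ y, χ y = 21 := by rw [sum_boole, filter_mem_eq_inter, univ_inter, k]; rfl
  have z0 : ∀ y ∈ S, av Γ χ y = 0 := fun y u => by
    rw [av_ind, filter_false_of_mem fun w _ v => c y u w v.2 v.1]; rfl
  have s2 := h.sum_sq χ
  have s3 : ∑ y, χ y ^ 2 = 21 := s1 ▸ sum_congr rfl fun y _ => by simp only [χ]; split_ifs <;> rfl
  have s4 : ∑ y, χ y * av Γ χ y = 0 := sum_eq_zero fun y _ => by
    by_cases u : y ∈ S
    · rw [z0 y u, mul_zero]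
    · simp [χ, u]
  have s5 : ∑ y, (av Γ χ y + 6 * χ y - 6) ^ 2 = 0 := by
    have : ∀ y, (av Γ χ y + 6 * χ y - 6) ^ 2 = av Γ χ y ^ 2 + 36 * χ y ^ 2 + 36 + 12 * (χ y * av Γ χ y) -
      12 * av Γ χ y - 72 * χ y := fun y => by ring
    simp only [this, sum_add_distrib, sum_sub_distrib, ← mul_sum, s2, s1, s3, s4, h.sum_av, sum_const, card_univ, hn]
    norm_num
  have := pow_eq_zero_iff two_ne_zero |>.1 ((sum_eq_zero_iff_of_nonneg fun _ _ => sq_nonneg _).1 s5 y (mem_univ y))
  rw [av_ind] at this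
  simp only [χ] at this
  split_ifs at this ⊢ <;> omega

theorem sumS (c : Coc Γ S) (k : #S = 21) (hx : x ∈ S) (a : Far Γ x z) :
    ∑ y ∈ S, W Γ x z y = if z ∈ S then 32 else -16 := by
  let E : Ω → ℤ := fun y => 11 * (if y ∈ S then 1 else 0) - 3
  have e : ∀ y, av Γ E y = -6 * E y := fun y => by
    have := (av_ind (· ∈ S) y).trans (hoff h hn c k y)
    simp only [av, E, sum_sub_distrib, ← mul_sum, sum_const, h.deg'] at this ⊢
    rw [this]; split_ifs <;> rfl
  have s := h.eig_dot e (by decide) 2 1 4 (U Γ x z)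
  rw [dotU, sum_congr (s₁ := univ.filter _) rfl (g := fun _ => -3) fun y u => by
    simp [E, show y ∉ S from fun v => c x hx y v (mem_filter.1 u).2.1], sum_const, h.nadj' a.1 a.2, ← W] at s
  simp only [E, mul_sub, sum_sub_distrib, ← sum_mul, h.eig_sum (eigW h a) (by decide), mul_left_comm _ (11 : ℤ),
    ← mul_sum, mul_ite, mul_one, mul_zero, ← sum_filter, filter_mem_eq_inter, univ_inter, hx, if_true] at s
  split_ifs at s ⊢ <;> simp at s <;> omega

theorem closed (c : Coc Γ S) (k : #S = 21) (hx : x ∈ S) (a : Far Γ x z) (hz : z ∈ S) (b : W Γ x z z' = 4) :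
    z' ∈ S := by
  have := sumS h hn c k hx (far_of h a (y := z') (by omega))
  rw [cls h a b, sumS h hn c k hx a, if_pos hz] at this
  by_contra u
  simp [u] at this

theorem inS (c : Coc Γ S) (k : #S = 21) (hx : x ∈ S) (a : Far Γ x z) (hz : z ∈ S) :
    (∀ y ∈ S, W Γ x z y ≠ -2) ∧ #{y ∈ S | W Γ x z y = 1} = 16 := by
  have e4 : (S.filter fun y => W Γ x z y = 4) = univ.filter fun y => W Γ x z y = 4 := ext fun y => by
    simpa using closed h hn c k hx a hz
  have e : ∀ α β δ : ℤ, ∀ f : ℤ → ℤ, f 0 = 0 → f 4 = α + δ → f 1 = β + δ → f (-2) = δ → ∑ y ∈ S, f (W Γ x z y) =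
      α * 4 + β * #{y ∈ S | W Γ x z y = 1} + δ * 20 := fun α β δ f f0 f1 f2 f3 => by
    have e5 : (S.filter fun y => y ≠ x) = S.erase x := filter_ne' S x
    rw [show (4 : ℤ) = (4 : ℕ) from rfl, ← (counts h hn a).1, ← e4, show (20 : ℤ) = (21 - 1 : ℕ) from rfl, ← k,
      ← card_erase_of_mem hx, ← e5]
    simp only [← sum_boole, mul_sum, ← sum_add_distrib]
    refine sum_congr rfl fun y u => ?_
    by_cases b : y = x
    · simp [b, W0 h a fun c => c.1 rfl, f0]
    · rcases vals h a ⟨Ne.symm b, c x hx y u⟩ with c | c | c <;> simp [*]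
  have e1 := e 6 3 (-2) id rfl rfl rfl rfl
  have e2 := e (-1) (-1) 1 (fun u => if u = -2 then 1 else 0) rfl rfl rfl rfl
  simp only [id, sumS h hn c k hx a, if_pos hz] at e1
  rw [sum_boole] at e2
  exact ⟨filter_eq_empty_iff.1 (card_eq_zero.1 (by omega)), by omega⟩

omit h hn in
/-- the neighbours of `o` other than `x` -/
abbrev V (Γ : SimpleGraph Ω) (x o : Ω) : Type _ := {c // Γ.Adj o c ∧ c ≠ x}

section
variable {o : Ω} (ho : Γ.Adj x o)
include ho

omit hn in
theorem farV (c : V Γ x o) : Far Γ x c := ⟨c.2.2.symm, fun u => h.no_tri ho u c.2.1⟩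

omit hn in
theorem cardV : Fintype.card (V Γ x o) = 15 := by
  rw [Fintype.card_subtype, ← filter_filter, filter_ne', card_erase_of_mem (by simpa using ho.symm), h.deg']

omit hn in
theorem eqV {c d : V Γ x o} (e : W Γ x c d = 4) : c = d := by
  by_contra u
  have : 0 < t Γ x c d := card_pos.2 ⟨o, mem_filter.2 ⟨mem_univ _, d.2.1.symm, ho, c.2.1.symm⟩⟩
  rw [W1 (farV h ho d), if_neg fun v => u (Subtype.ext v).symm] at e
  split_ifs at e <;> omega

omit hn in
theorem disjV {K : Finset (V Γ x o)} : (K : Set (V Γ x o)).PairwiseDisjoint fun c : V Γ x o =>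
    univ.filter fun y => W Γ x c y = 4 := fun c _ d _ e => disjoint_left.2 fun y u v => e (eqV h ho (by
  rw [← cls h (farV h ho c) (mem_filter.1 u).2, cls h (farV h ho d) (mem_filter.1 v).2, W_self h (farV h ho d)]))

theorem card_bi (K : Finset (V Γ x o)) : #(K.biUnion fun c => univ.filter fun y => W Γ x c y = 4) = #K * 4 := by
  rw [card_biUnion (disjV h ho), sum_congr rfl fun c _ => (counts h hn (farV h ho c)).1, sum_const, smul_eq_mul]

theorem dotV (c d : V Γ x o) : ∑ e : V Γ x o, W Γ x c e * W Γ x d e = 12 * W Γ x d c := by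
  have e1 : (univ.biUnion fun c : V Γ x o => univ.filter fun y => W Γ x c y = 4) = univ.filter fun y => Far Γ x y :=
    eq_of_subset_of_card_le (fun y u => by
      obtain ⟨c, -, v⟩ := mem_biUnion.1 u
      exact mem_filter.2 ⟨mem_univ _, far_of h (farV h ho c) (by rw [(mem_filter.1 v).2]; decide)⟩)
      (by rw [card_bi h hn ho, card_far h hn, card_univ, cardV h ho])
  have e2 := dot h (farV h ho c) (farV h ho d)
  rw [← sum_filter_of_ne (p := Far Γ x) fun y _ u => far_of h (farV h ho c) (left_ne_zero_of_mul u), ← e1,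
    sum_biUnion (disjV h ho), sum_congr rfl (g := fun e : V Γ x o => 4 * (W Γ x c e * W Γ x d e)) fun e _ => by
      rw [sum_congr rfl fun y u => by rw [cls' h (farV h ho e) (mem_filter.1 u).2 (farV h ho c),
        cls' h (farV h ho e) (mem_filter.1 u).2 (farV h ho d)], sum_const, (counts h hn (farV h ho e)).1]; rfl,
    ← mul_sum] at e2
  omega

omit hn in
/-- the collinearity graph -/
def L : SimpleGraph (V Γ x o) where
  Adj c d := W Γ x c d = -2
  symm := ⟨fun c d u => (W_comm (farV h ho d) (farV h ho c)).trans u⟩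
  loopless := ⟨fun c u => by rw [W_self h (farV h ho c)] at u; exact absurd u (by decide)⟩

theorem srL : SR (L h ho) 6 1 3 := by
  have w : ∀ c e : V Γ x o, W Γ x c e = 1 + 3 * (if c = e then 1 else 0) - 3 * if (L h ho).Adj c e then 1 else 0 :=
    fun c e => by
      by_cases u : c = e
      · subst u; simp [W_self h (farV h ho c)]
      · rcases vals h (farV h ho c) (farV h ho e) with v | v | v
        exacts [absurd (eqV h ho v) u, by simp [L, u, v], by simp [L, u, v]]
  have dg : ∀ c, #{e | (L h ho).Adj c e} = 6 := fun c => by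
    have := dotV h hn ho c c
    rw [W_self h (farV h ho c), sum_congr rfl (g := fun e => 1 + 15 * (if c = e then 1 else 0) +
      3 * if (L h ho).Adj c e then 1 else 0) fun e _ => by
        rw [w]; by_cases u : c = e
        · simp [u]
        · split_ifs <;> simp] at this
    simp only [sum_add_distrib, ← mul_sum, sum_boole, sum_const, card_univ, cardV h ho, filter_eq, mem_univ, if_true,
      card_singleton, nsmul_eq_mul] at this
    omega
  have cn : ∀ c d, c ≠ d → (#{e | (L h ho).Adj c e ∧ (L h ho).Adj d e} : ℤ) =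
      3 - 2 * if (L h ho).Adj c d then 1 else 0 := fun c d u => by
    have := dotV h hn ho c d
    rw [sum_congr rfl (g := fun e => 1 + (if c = e then 3 - 9 * (if (L h ho).Adj c d then 1 else 0) else 0) +
      (if d = e then 3 - 9 * (if (L h ho).Adj c d then 1 else 0) else 0) - 3 * (if (L h ho).Adj c e then 1 else 0) -
      3 * (if (L h ho).Adj d e then 1 else 0) + 9 * if (L h ho).Adj c e ∧ (L h ho).Adj d e then 1 else 0) fun e _ => by
        rw [w, w]
        by_cases u1 : c = e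
        · subst u1; simp [u.symm, (L h ho).adj_comm d]; split_ifs <;> simp
        · by_cases u2 : d = e
          · subst u2; simp [u]; split_ifs <;> simp
          · by_cases v1 : (L h ho).Adj c e <;> by_cases v2 : (L h ho).Adj d e <;> simp [*],
      w, if_neg u.symm, (L h ho).adj_comm d] at this
    simp only [sum_add_distrib, sum_sub_distrib, ← mul_sum, sum_boole, sum_const, card_univ, cardV h ho, sum_ite_eq,
      mem_univ, if_true, nsmul_eq_mul, dg] at this
    omega
  refine ⟨fun c => (ncard_eq _).trans (dg c), fun c d u => (ncard_eq _).trans ?_, fun c d u v => (ncard_eq _).trans ?_⟩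
  · have := cn c d u.ne; rw [if_pos u] at this; omega
  · have := cn c d u; rw [if_neg v] at this; omega

end

theorem three (a : Far Γ x z) (b : W Γ x z z' = 1) :
    ∃! S : Finset Ω, (Coc Γ S ∧ #S = 21) ∧ x ∈ S ∧ z ∈ S ∧ z' ∈ S := by
  have a' := far_of h a (y := z') (by omega)
  obtain ⟨o, ho⟩ : (univ.filter fun w => Γ.Adj z' w ∧ Γ.Adj x w ∧ Γ.Adj z w).Nonempty := card_pos.1 (by
    have := W1 (z := z) a'
    rw [t] at this; omega)
  obtain ⟨-, o1, ho, o2⟩ := mem_filter.1 ho
  let c : V Γ x o := ⟨z, o2.symm, a.1.symm⟩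
  let d : V Γ x o := ⟨z', o1.symm, a'.1.symm⟩
  obtain ⟨K, ⟨k1, k2, k3, k4⟩, k5⟩ := GQ.ovoid (srL h hn ho) (cardV h ho) (c := c) (d := d)
    (fun e => by rw [show z' = z from (congrArg Subtype.val e).symm, W_self h a] at b; omega)
    (fun e => by rw [show W Γ x z z' = -2 from e] at b; omega)
  have m : ∀ y ∈ K.biUnion fun c => univ.filter fun y => W Γ x c y = 4, Far Γ x y := fun y u => by
    obtain ⟨c, -, v⟩ := mem_biUnion.1 u
    exact far_of h (farV h ho c) (by rw [(mem_filter.1 v).2]; decide)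
  have k6 : #(insert x (K.biUnion fun c => univ.filter fun y => W Γ x c y = 4)) = 21 := by
    rw [card_insert_of_notMem fun u => (m x u).1 rfl, card_bi h hn ho, k2]
  have k7 : ∀ c ∈ K, c.1 ∈ insert x (K.biUnion fun c => univ.filter fun y => W Γ x c y = 4) := fun c u =>
    mem_insert_of_mem (mem_biUnion.2 ⟨c, u, mem_filter.2 ⟨mem_univ _, W_self h (farV h ho c)⟩⟩)
  refine ⟨_, ⟨⟨fun u hu v hv e => ?_, k6⟩, mem_insert_self _ _, k7 c k3, k7 d k4⟩, fun S ⟨⟨s1, s2⟩, s3, s4, s5⟩ =>
    (eq_of_subset_of_card_le (insert_subset s3 (biUnion_subset.2 fun e he y u => ?_)) (by rw [k6, s2])).symm⟩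
  · rcases mem_insert.1 hu with rfl | hu <;> rcases mem_insert.1 hv with rfl | hv
    exacts [e.ne rfl, (m v hv).2 e, (m u hu).2 e.symm, by
      have w := W1 (z := u) (m v hv)
      rw [if_neg e.ne', if_pos e.symm] at w
      obtain ⟨p, p1, p2⟩ := mem_biUnion.1 hu
      obtain ⟨q, q1, q2⟩ := mem_biUnion.1 hv
      rw [cls h (farV h ho p) (mem_filter.1 p2).2, cls' h (farV h ho q) (mem_filter.1 q2).2 (farV h ho p)] at w
      exact k1 p p1 q q1 (by have := vals h (farV h ho p) (farV h ho q); show W Γ x p q = -2; omega)]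
  · have s6 := hoff h hn s1 s2 o
    rw [if_neg fun u => s1 x s3 o u ho] at s6
    rw [← k5 (univ.filter fun e : V Γ x o => e.1 ∈ S) ⟨fun p p1 q q1 => (inS h hn s1 s2 s3 (farV h ho p)
      (mem_filter.1 p1).2).1 q (mem_filter.1 q1).2, by
        rw [← card_map (Function.Embedding.subtype _), show map _ _ = (univ.filter fun w => Γ.Adj o w ∧ w ∈ S).erase x by
          ext; simp; tauto, card_erase_of_mem (by simp [ho.symm, s3])]
        omega, by simpa, by simpa⟩] at he
    exact closed h hn s1 s2 s3 (farV h ho e) (mem_filter.1 he).2 (mem_filter.1 u).2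

omit h hn in
/-- the points -/
abbrev Pt (Γ : SimpleGraph Ω) : Type _ := {S : Finset Ω // Coc Γ S ∧ #S = 21}

omit h hn in
/-- the blocks -/
noncomputable def blk (Γ : SimpleGraph Ω) (x : Ω) : Finset (Pt Γ) := {S | x ∈ S.1}

theorem two (a : Far Γ x z) : #(blk Γ x ∩ blk Γ z) = 2 := by
  have := card_mul_eq_card_mul (fun (S : Pt Γ) y => y ∈ S.1) (s := blk Γ x ∩ blk Γ z)
    (t := univ.filter fun y => W Γ x z y = 1) (m := 16) (n := 1) (fun S u => by
      simp only [blk, mem_inter, mem_filter, mem_univ, true_and] at u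
      rw [← (inS h hn S.2.1 S.2.2 u.1 a u.2).2]
      congr 1; ext; simp [and_comm]) fun y u => by
    obtain ⟨S, s1, s2⟩ := three h hn a (mem_filter.1 u).2
    exact card_eq_one.2 ⟨⟨S, s1.1⟩, eq_singleton_iff_unique_mem.2 ⟨by simpa [blk, and_assoc] using s1.2,
      fun T v => Subtype.ext (s2 T ⟨T.2, by simpa [blk, and_assoc] using v⟩)⟩⟩
  rw [(counts h hn a).2] at this
  omega

theorem six (x : Ω) : #(blk Γ x) = 6 := by
  have := card_mul_eq_card_mul (fun (S : Pt Γ) y => y ∈ S.1) (s := blk Γ x) (t := univ.filter fun y => Far Γ x y)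
    (m := 21 - 1) (n := 2) (fun S u => by
      have u := (mem_filter.1 u).2
      refine Eq.trans ?_ ((card_erase_of_mem u).trans (congrArg (· - 1) S.2.2))
      congr 1; ext y
      simp only [mem_bipartiteAbove, mem_filter, mem_univ, true_and, mem_erase]
      exact and_congr_left fun v => ⟨fun w => w.1.symm, fun w => ⟨w.symm, S.2.1 x u y v⟩⟩) fun y u => by
    rw [← two h hn (mem_filter.1 u).2]
    congr 1; ext; simp [blk]
  rw [card_far h hn] at this
  omega

theorem card_pt : Fintype.card (Pt Γ) = 22 := by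
  have := card_mul_eq_card_mul (fun (S : Pt Γ) y => y ∈ S.1) (s := univ) (t := univ) (m := 21) (n := 6)
    (fun S _ => Eq.trans (by congr 1; ext; simp) S.2.2) fun y _ => six h hn y
  rw [card_univ, card_univ, hn] at this
  omega

theorem card_inter (x z : Ω) : #(blk Γ x ∩ blk Γ z) = if x = z then 6 else if Γ.Adj x z then 0 else 2 := by
  split_ifs with c d
  · rw [c, inter_self, six h hn]
  · exact card_eq_zero.2 (eq_empty_of_forall_notMem fun S u =>
      S.2.1 x (mem_filter.1 (mem_inter.1 u).1).2 z (mem_filter.1 (mem_inter.1 u).2).2 d)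
  · exact two h hn ⟨c, d⟩

theorem steiner : IsSteinerSystem 3 6 (Set.range (blk Γ)) := by
  have un : ∀ y z s, #s = 3 → s ⊆ blk Γ y → s ⊆ blk Γ z → y = z := fun y z s hs e e' => by
    have c1 := card_le_card (subset_inter e e')
    rw [card_inter h hn, hs] at c1
    split_ifs at c1 <;> first | assumption | omega
  refine ⟨by rintro _ ⟨y, rfl⟩; exact six h hn y, fun s hs => ?_⟩
  have e : univ.biUnion (fun y => powersetCard 3 (blk Γ y)) = powersetCard 3 univ := by
    refine eq_of_subset_of_card_le (fun t ht => ?_) ?_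
    · obtain ⟨y, -, e⟩ := mem_biUnion.1 ht
      exact mem_powersetCard_univ.2 (mem_powersetCard.1 e).2
    · rw [card_biUnion fun y _ z _ c => disjoint_left.2 fun t e e' => c (un y z t
        (mem_powersetCard.1 e).2 (mem_powersetCard.1 e).1 (mem_powersetCard.1 e').1),
        sum_congr rfl (g := fun _ => 20) fun y _ => by rw [card_powersetCard, six h hn]; rfl,
        sum_const, card_powersetCard, card_univ, card_univ, card_pt h hn, hn]
      decide
  obtain ⟨y, -, e'⟩ := mem_biUnion.1 (e ▸ mem_powersetCard_univ.2 hs)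
  refine ⟨_, ⟨⟨y, rfl⟩, (mem_powersetCard.1 e').1⟩, ?_⟩
  rintro _ ⟨⟨z, rfl⟩, c⟩
  rw [un z y s hs c (mem_powersetCard.1 e').1]

theorem iso : Nonempty (Γ ≃g blockGraph (Set.range (blk Γ))) := by
  have inj : Function.Injective (blk Γ) := fun y z e => by
    have c1 := card_inter h hn y z
    rw [← e, inter_self, six h hn] at c1
    split_ifs at c1 <;> omega
  refine ⟨⟨Equiv.ofInjective _ inj, fun {y z} => ?_⟩⟩
  have c1 := card_inter h hn y z
  rw [blockGraph, SimpleGraph.fromRel_adj, (Equiv.injective _).ne_iff]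
  show _ ∧ (Disjoint (blk Γ y) (blk Γ z) ∨ Disjoint (blk Γ z) (blk Γ y)) ↔ _
  rw [disjoint_comm (a := blk Γ z), or_self, disjoint_iff_inter_eq_empty, ← card_eq_zero, c1, ne_eq]
  exact ⟨fun u => by by_contra v; simp [u.1, v] at u, fun u => by simp [u, u.ne]⟩

omit h hn in
theorem bg_iso {α β : Type*} [DecidableEq β] {B : Set (Finset α)} {B' : Set (Finset β)} (h : SetSystemIso B B') :
    Nonempty (blockGraph B ≃g blockGraph B') := by
  obtain ⟨e, rfl⟩ := h
  let e' := ((image_injective e.injective).injOn (s := B)).bijOn_image.equiv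
  have h1 : ∀ b : B, (e' b : Finset β) = b.1.image e := fun _ => rfl
  exact ⟨⟨e', by simp [blockGraph, SimpleGraph.fromRel_adj, h1, disjoint_image e.injective]⟩⟩

theorem uniq {Ω' : Type*} [Fintype Ω'] {Γ' : SimpleGraph Ω'} (h' : SR Γ' 16 0 4) (hn' : Fintype.card Ω' = 77) :
    Nonempty (Γ ≃g Γ') := by
  obtain ⟨a⟩ := iso h hn
  obtain ⟨b⟩ := iso h' hn'
  obtain ⟨c⟩ := bg_iso (Cfsg.Agent.S0410.result (card_pt h hn) (card_pt h' hn') (steiner h hn) (steiner h' hn'))
  exact ⟨(a.trans c).trans b.symm⟩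

end CF.Srg.U77
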