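import Cfsg.Agent.Srg.R3
import Cfsg.Agent.Srg.McLD
import Cfsg.Agent.Leech.Psu
import Cfsg.Agent.Leech.Co1

/-! The McLaughlin graph is determined by the action of `U4(3)`. -/

set_option autoImplicit false
set_option maxRecDepth 1000000

namespace CF.Srg

open CF.Comp MulAction
open scoped Pointwise _root_.Classical

section
variable {K Ω X : Type*} [Group K] [MulAction K Ω] [MulAction K X] {Γ : SimpleGraph Ω} {b : Ω} {n : ℕ} {D : Dom X n}
  {N : List Net} {g : ℕ → K}

theorem orb_le [Finite K] (h : Reps D N g) (hn : n < 16777215) {gs : List (List ℕ)} {k i O s : ℕ}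
    (hc : orbOK N n gs k i O s = true) (hb : ∀ k : K, k • b = b → k • D.pt i = D.pt i) : s ≤ (orbit K b).ncard := by
  rw [orbOK, brec_and, brec_and, beq_iff, beq_iff, ble_iff, ← ncard_popF D hn] at hc
  have h1 : D.set O ⊆ orbit K (D.pt i) := fun x hx =>
    let ⟨k, _, e⟩ := h.exists_of_mem_orb_pt (H := ⊤) (fun _ _ => trivial) hc.1 (hc.2.1 ▸ hx); ⟨k, e⟩
  refine (hc.2.2 ▸ Set.ncard_le_ncard h1 (Set.finite_range _)).trans ?_
  rw [← index_stabilizer, ← index_stabilizer]
  exact Subgroup.index_antitone (show stabilizer K b ≤ stabilizer K (D.pt i) from hb)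

theorem set_congr {D' : Dom X n} {m U : ℕ} (h : ∀ i < m, D.pt i = D'.pt i) (hU : U < 2 ^ m) : D.set U = D'.set U :=
  Set.ext fun x => by
    simp only [Dom.mem_set]
    refine exists_congr fun i => and_congr_right fun _ => and_congr_right fun a => ?_
    rw [h i (not_le.1 fun c => by
      simp [Nat.testBit_lt_two_pow (hU.trans_le (Nat.pow_le_pow_right two_pos c))] at a)]

/-- the net maps the first table to the second -/
noncomputable def isoF (row row' : ℕ → ℕ) (n d : ℕ) (τ : Net) : Bool :=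
  Bool.rec false (forceL (imgP τ n d) fun P => allBin (fun j => Nat.beq (τ.fwd (nat_lit 1) (row j))
    (force (column P j) row')) n d (nat_lit 0)) (τ.wf (Nat.shiftLeft (nat_lit 1) n))

theorem Mdl.transfer {row row' : ℕ → ℕ} (h : Mdl Γ row n) {d : ℕ} (hd : n ≤ 2 ^ d) {τ : Net}
    (hc : isoF row row' n d τ = true) : Mdl Γ row' n := by
  rw [isoF, brec_and, one_shl, forceL_eq] at hc
  obtain ⟨D, h1, h2⟩ := h
  have s := Net.supp hc.1
  refine ⟨⟨fun i => D.pt (τ.perm⁻¹ i), fun i hi j hj e => τ.perm⁻¹.injective (D.inj _ (s.inv.lt hi) _ (s.inv.lt hj) e)⟩,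
    fun x => ?_, fun i hi j hj => ?_⟩
  · obtain ⟨i, hi, rfl⟩ := h1 x
    exact ⟨_, s.lt hi, congrArg D.pt (pinv_app _ i)⟩
  · have h3 := allBin_spec hc.2 hd _ (s.inv.lt hj)
    have h4 := (Net.img_fwd (isRepl_one n) hc.1 (row (τ.perm⁻¹ j))).1 _ (s.inv.lt hi) 0 (by omega)
    rw [force_eq, beq_iff, column_imgP hc.1 hd (s.inv.lt hj), papp_inv] at h3
    simp only [mul_zero, add_zero, papp_inv] at h4
    rw [← h3]
    exact (h2 _ (s.inv.lt hi) _ (s.inv.lt hj)).trans (by rw [← h4])
end

namespace McL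

open CF.Leech hiding tb tb_eq beq_iff ble_iff brec_and brec_or
open Cfsg.Spor

/-- the neighbours -/
noncomputable def row (j : ℕ) : ℕ := T.get j

/-- the point stabiliser -/
noncomputable abbrev H : Subgroup Cfsg.Co0 := St3 leechV leechU leechX

theorem le : Finite (autG row 275) ∧ Nat.card (autG row 275) ≤ 2 * 898128000 :=
  autG_le (d := 9) (σ := Rσ) (rs := Rrs) (L := RL) (by decide) (by decide) (by decide) (by decide +kernel)

theorem hom : ∃ φ : Cfsg.Spor.McL →* autG row 275, Function.Injective φ := by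
  obtain ⟨φ, h⟩ := hom_of_exact (row := row) bExact (pf_mem_mapF (d := 9) (by decide) bExact.reps.wf
    (lall_iff.1 (show lall (fun ν => mapF row 275 9 ν ν) Dat.bN = true by decide +kernel)))
  exact ⟨φ.comp McLEquiv.symm.toMonoidHom, h.comp McLEquiv.symm.injective⟩

theorem mem (i : ℕ) : evs Psu.f ws i ∈ H := Bt.evs_mem (fun w a => bStab.le
  ⟨ev_mem (slp_mem bMem _ _) w, bExact.reps.fixW (by decide)
    (lall_iff.1 (show lall (fixW Dat.bN 172) ws = true by decide +kernel) w a)⟩) i

theorem gen : H ≤ clo (evs Psu.f ws) [[1], [3]] := by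
  rw [clo_evs, H, ← bExact1.eq_clo]
  exact clo_le.2 (clo_le_of_slpIn (by decide +kernel))

theorem νwf : wfAll [ν] 275 = true := by decide +kernel

/-- a point and its neighbours -/
noncomputable def D0 : Dom (Set W2) 113 := (prDom Dat.bT 275 0 0 bOK).sub ν νwf (by decide)

theorem R0 : Reps D0 N0 (evs Psu.f ws) :=
  bExact.reps.sub_of_OK (k := 7) νwf (by decide) (by decide) (by decide +kernel)

/-- the checks for one of the four orbits of hemisystems -/
noncomputable def finOK (L : List ℕ) (Y : List Net) (S : BT ℕ) (τ : Net) (U i2 : ℕ) (hw : List (List ℕ)) (q q' : ℕ)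
    (Rs : List ℕ) : Bool :=
  lall (fun t => t) [incOK N0 Y L 113 275, allFrom (fun i => Nat.beq (column L0 i) (column L i)) 0 113,
    lall (fun ν => mapF S.get 275 9 ν ν) Y, asmOK S.get 275 9 0 112 i2 A B, orbOK Y 275 [[1], [3]] q i2 B 162,
    lall (fixW Y i2) hw, detOK Y 275 hw q' Rs B 56 (Nat.land (S.get i2) B), isoF S.get row 275 9 τ,
    Nat.beq (Nat.land (S.get 112) A) C, Nat.beq (Nat.land (S.get i2) A) U, tb (S.get 0) 112,
    Bool.rec true false (tb (S.get 0) i2), Nat.ble (Nat.succ U) (Nat.pow 2 113), Nat.ble (llen L) 113, sorted L 275]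

theorem s0 : sorted L0 275 = true := by decide +kernel

/-- the first domain of subsets -/
noncomputable def E : Dom (Finset (Set W2)) 275 := D0.inc L0 275 (by decide +kernel) s0

theorem E112 : (E.pt 112 : Set (Set W2)) = {(prDom Dat.bT 275 0 0 bOK).pt 2} := by
  have : ν.perm 1 = 2 := (Net.app_eq (n := 275) (wf_of_wfAll νwf 0) (by decide)).symm.trans (by decide +kernel)
  rw [E, Dom.inc_pt, Dom.coe_fset, show column L0 112 = 2 ^ 1 by decide +kernel, D0.set_two_pow (by decide), ← this]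
  rfl

theorem fin {Ω : Type*} [Fintype Ω] [MulAction H Ω] {Γ : SimpleGraph Ω} (hΓ : SR Γ 112 30 56)
    (hn : Fintype.card Ω = 275) {a b c : Ω} (h : R3 H Γ a b c) (hc : (orbit H c).ncard = 162)
    (h1 : Cor H b (E.pt 112) ∧ orbit H (E.pt 112) = E.set A) (t1 : Nb H Γ b (E.pt 112) b = E.set C) {U : ℕ}
    (t2 : Nb H Γ b (E.pt 112) c = E.set U) {L : List ℕ} {Y : List Net} {S : BT ℕ} {τ : Net} {i2 : ℕ}
    {hw : List (List ℕ)} {q q' : ℕ} {Rs : List ℕ} (ok : finOK L Y S τ U i2 hw q q' Rs = true) : Mdl Γ row 275 := by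
  simp only [finOK, lall_iff (f := fun t => t), List.forall_mem_cons, allFrom_zero, beq_iff, ble_iff, brec_not, tb_eq,
    llen_eq] at ok
  obtain ⟨c1, c2, c3, c4, c5, c6, c7, c8, c9, d1, d2, d3, d4, d5, d6, -⟩ := ok
  have R := R0.inc d5 d6 c1
  have e : ∀ i < 113, E.pt i = (D0.inc L 275 d5 d6).pt i := fun i hi => congrArg D0.fset (c2 i hi)
  rw [e 112 (by decide), set_congr e (by decide +kernel)] at h1 t1
  rw [e 112 (by decide), set_congr e d4] at t2
  refine (finish (Bt.reps_sub R mem) (by decide) (pres_sub (pres_of_clo R (pf_mem_mapF (d := 9) (by decide) R.wf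
    (lall_iff.1 c3))) gen) h.inv (by decide) c4 hn h.fix (fun k => ?_) h.cov h1 (iff_of_true h.ab d2)
    (iff_of_false h.ac.2 (by simp [d3])) (c9 ▸ t1) (d1 ▸ t2) c5 hc c6 (h.cc hΓ rfl) c7).transfer (by decide) c8
  have : (D0.inc L 275 d5 d6).pt 0 = ∅ := (e 0 (by decide)).symm.trans (Finset.coe_injective (by
    rw [E, Dom.inc_pt, Dom.coe_fset, show column L0 0 = 0 by decide +kernel]; ext; simp [Dom.mem_set]))
  rw [this]; exact Finset.smul_finset_empty _

/-- a Sylow 3-subgroup -/
noncomputable def Pw : List (List ℕ) := [[19], [21], [23], [25], [27], [29]]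

theorem f0 : finOK L0 Y0 T0 τ0 U0 117 [[11], [13]] 7 6 [113, 117, 128] = true := by decide +kernel
theorem f1 : finOK L1 Y1 T1 τ1 U1 256 [[15], [17]] 6 7 [113, 114, 256] = true := by decide +kernel
theorem f2 : finOK L2 Y2 T2 τ2 U2 131 [[15], [17]] 6 7 [113, 119, 131] = true := by decide +kernel
theorem f3 : finOK L3 Y3 T3 τ3 U3 270 [[11], [13]] 7 7 [113, 118, 270] = true := by decide +kernel

theorem main {Ω : Type*} [Fintype Ω] [MulAction H Ω] {Γ : SimpleGraph Ω} (hΓ : SR Γ 112 30 56)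
    (hn : Fintype.card Ω = 275) {a b c : Ω} (h : R3 H Γ a b c) (hb : (orbit H b).ncard = 112)
    (hc : (orbit H c).ncard = 162) : Mdl Γ row 275 := by
  have R := Bt.reps_sub (Bt.reps_evs bExact.reps (k := 9) (by decide) (nets2 := X) (by decide +kernel)) mem
  have F := Bt.eqv_sameW R (k := 9) (by decide) (Bt.faithful_sub bExact1.faithful)
  have P : Pres (prDom Dat.bT 275 0 0 bOK) (⊤ : Subgroup H) row := pres_sub (pres_of_clo bExact.reps
    (pf_mem_mapF (d := 9) (by decide) bExact.reps.wf (lall_iff.1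
      (show lall (fun ν => mapF row 275 9 ν ν) Dat.bN = true by decide +kernel)))) bExact1.eq_clo.ge
  obtain ⟨x, hx, fx⟩ := fix_pt Nat.prime_three ((F.pc (ss := Pw) (c := pc) (by decide +kernel)).pgroup (by decide)) b
    (by rw [hb]; decide)
  rw [← orbit_eq_iff.2 hx] at hb
  obtain ⟨U, hU, e⟩ := step1 R (by decide) fx (side_sound P (d := 9) (i0 := 172) (i := 2) (O := O1) (by decide)
    (by decide +kernel) fun k => (bStab.ge k.2).2) hb (c := 29160) card_U43 (k := 2) (Rs := [2, 3, 17, 96])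
    (Ls := [Nat.shiftLeft (nat_lit 1) 2, ln]) (by decide +kernel)
  rcases List.mem_pair.1 hU with rfl | rfl
  swap
  · exact absurd (hb ▸ orb_le (Bt.reps_sub Psu.aReps Psu.f2_mem) (by decide) (gs := [[1], [3]]) (k := 8) (i := 275)
      (O := full 280) (s := 280) (by decide +kernel) fun k t => Finset.coe_injective (by
        rw [Finset.coe_smul_finset, Dom.inc_pt, Dom.coe_fset, show column Psu.aL 275 = ln by decide +kernel, e k t]))
      (by decide)
  obtain ⟨y, hy, fy⟩ := fix_pt (q := 7) (by norm_num) ((F.pc (ss := [[9]]) (c := [([], [])]) (by decide +kernel)).pgroup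
    (by decide)) c (by rw [hc]; decide)
  rw [← orbit_eq_iff.2 hy] at hc
  have h := h.move hx hy
  have R' : Reps E Y0 _ := Bt.reps_sub (R0.inc _ s0 (by decide +kernel)) mem
  have h1 := cor_orb R' (by decide) (gs := [[1], [3]]) (k := 7) (i := 112) (O := A) (by decide +kernel) hb
    fun k t => Finset.coe_injective (by
      rw [Finset.coe_smul_finset, E112, Set.smul_set_singleton, fix_of_set (by decide) (e k t)])
  have t1 := step2 R' (by decide) h.inv h1.1 h1.2 (by decide) (ws := [[5], [7]]) (by decide +kernel) (h.bb hΓ)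
    (k := 6) (Rs := [1, 2, 112]) (C := C) (by decide +kernel)
  obtain ⟨V, hV, t2⟩ := step3 hΓ R' (by decide) h.inv h1.1 h1.2 (by decide) t1 fy h.nc (h.cb hΓ) (q := 6) (wl := awl)
    (sz := asz) (B := aB) (cs := acs) (leaf := fun U => lany (Nat.beq U) [U0, U1, U2, U3]) (by decide +kernel) (m := 16)
    rfl (c1 := 56) (c2 := -26) (by norm_num) (by norm_num) (allFrom_zero.1 (by decide +kernel)) (by decide +kernel)
  simp only [lany_iff, List.mem_cons, List.not_mem_nil, or_false, exists_eq_or_imp, exists_eq_left, beq_iff] at hV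
  rcases hV with rfl | rfl | rfl | rfl
  exacts [fin hΓ hn h hc h1 t1 t2.symm f0, fin hΓ hn h hc h1 t1 t2.symm f1, fin hΓ hn h hc h1 t1 t2.symm f2,
    fin hΓ hn h hc h1 t1 t2.symm f3]

end McL

end CF.Srg
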