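import Cfsg.Agent.Srg.SuzK
import Cfsg.Agent.Comp.Suz.Main

/-! The Suzuki graph is determined by the action of `G2(4)`. -/

set_option autoImplicit false
set_option maxRecDepth 1000000

namespace CF.Srg.Suz

open CF.Comp MulAction
open scoped Pointwise _root_.Classical

/-- the point stabiliser -/
noncomputable abbrev H : Subgroup Cfsg.Spor.Suz := stabIn ⊤ (Comp.Suz.D.pt 0)

theorem hH : clo Comp.Suz.f Comp.Suz.H1 = H := Comp.Suz.stab.1

theorem cardH : Nat.card H = 251596800 := hH ▸ Comp.Suz.card1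

theorem aut (i : ℕ) : pf Comp.Suz.N0 i ∈ autG row 1782 := pf_mem_mapF (d := 11) (by decide) Comp.Suz.reps0.wf
  (by simp only [Comp.Suz.N0, List.forall_mem_cons, a0, a1, a2, a3, a4, a5, a6]; simp) i

theorem le : Finite (autG row 1782) ∧ Nat.card (autG row 1782) ≤ 2 * 448345497600 :=
  autG_le (d := 11) (by decide) (by decide) (by decide) c2

theorem hom : ∃ φ : Cfsg.Spor.Suz →* autG row 1782, Function.Injective φ := by
  obtain ⟨φ, h⟩ := hom_of_clo Comp.Suz.reps0 (fun w _ => ev_mem aut w) Comp.Suz.top0 Comp.Suz.exact.faithful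
  exact ⟨φ.comp (Subgroup.topEquiv (G := Cfsg.Spor.Suz)).symm.toMonoidHom, h.comp (Subgroup.topEquiv (G := Cfsg.Spor.Suz)).symm.injective⟩

theorem main {Ω : Type*} [Fintype Ω] [MulAction H Ω] {Γ : SimpleGraph Ω} (hΓ : SR Γ 416 100 96)
    (hn : Fintype.card Ω = 1782) {a b c : Ω} (h : R3 H Γ a b c) (hb : (orbit H b).ncard = 416)
    (hc : (orbit H c).ncard = 1365) : Mdl Γ row 1782 := by
  have R := Bt.reps_sub (Bt.reps_evs Comp.Suz.reps (by decide) c3) (evs_stab Comp.Suz.reps (by decide) c4)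
  have F := Bt.faithful_sub (Comp.Suz.exact.faithful.mono (le_top (a := H)))
  have P : Pres Comp.Suz.D (⊤ : Subgroup H) row := pres_sub (pres_of_clo Comp.Suz.reps0 aut) (le_top.trans Comp.Suz.top0.ge)
  have h0 : ∀ k : H, k • Comp.Suz.D.pt 0 = Comp.Suz.D.pt 0 := fun k => k.2.2
  obtain ⟨x, hx, fx⟩ := fix_pt Nat.prime_two (((Bt.eqv_sameW R (by decide) F).pc c5).pgroup (by decide)) c
    (by rw [hc]; decide)
  rw [← orbit_eq_iff.2 hx] at hc
  obtain ⟨U, hU, e⟩ := step1 R (by decide) fx (side_sound P (by decide) c8 h0) hc cardH c9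
  rcases List.mem_pair.1 hU with rfl | rfl
  · obtain ⟨y, hy, fy⟩ := fix_pt Nat.prime_five (((Bt.eqv_sameW R (by decide) F).pc c6).pgroup (by decide)) b
      (by rw [hb]; decide)
    have h := h.move hy hx
    have h1 := cor_orb R (by decide) d1 hc fun k t => fix_of_set (by decide) (e k t)
    have t1 := step2 R (by decide) h.inv h1.1 h1.2 (by decide) (by decide +kernel) (h.cc hΓ rfl) d3
    obtain ⟨z, hz, V, hV, t2⟩ := tgt_sound R h.inv h1.1 (step3 hΓ R (by decide) h.inv h1.1 h1.2 (by decide) t1 fy h.nb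
      (h.bc hΓ rfl) d5 (m := 57) rfl (by norm_num) (by norm_num) (allFrom_zero.1 d6) d7)
    rw [List.mem_singleton.1 hV] at t2
    have h := h.move hz (mem_orbit_self x)
    exact finish R (by decide) P h.inv (by decide) c7 hn h.fix h0 h.cov' h1 (iff_of_false h.ac.2 (by decide +kernel))
      (iff_of_true h.ab (by decide +kernel)) t1 t2 d2 (by rw [orbit_eq_iff.2 hz, orbit_eq_iff.2 hy, hb])
      (by decide +kernel) (h.bb hΓ) d4
  · have R' := R.sel [0, 1, 2, 3]
    have R2 := inc_mapF R' (by decide) l1 l2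
    obtain ⟨y, hy, fy⟩ := fix_pt Nat.prime_five (((Bt.eqv_sameW R' (by decide) F).pc l3).pgroup (by decide)) b
      (by rw [hb]; decide)
    have h := h.move hy hx
    have h1 := cor_orb R2 (by decide) l4 hc fun k t => Finset.coe_injective (by
      rw [Finset.coe_smul_finset, Dom.inc_pt, Dom.coe_fset, show column (tabl tf 1782) 1361 = ln by decide +kernel, e k t])
    have t1 := step2 R2 (by decide) h.inv h1.1 h1.2 (by decide) (by decide +kernel) (h.cc hΓ rfl) l5
    obtain ⟨_, t, -⟩ := step3 hΓ R2 (by decide) h.inv h1.1 h1.2 (by decide) t1 fy h.nb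
      (h.bc hΓ rfl) l6 (m := 57) rfl (by norm_num) (by norm_num) (allFrom_zero.1 l7) l8
    exact absurd t (by simp)

end CF.Srg.Suz
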