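import Cfsg.Agent.Srg.RuK

/-! The Rudvalis graph is determined by the action of `²F₄(2)`. -/

set_option autoImplicit false
set_option maxRecDepth 1000000

namespace CF.Srg.Ru

open CF.Comp MulAction
open scoped Pointwise _root_.Classical

/-- the point stabiliser -/
noncomputable abbrev H : Subgroup Ru.K := stabIn ⊤ (Ru.D.pt 0)

theorem main {Ω : Type*} [Fintype Ω] [MulAction H Ω] {Γ : SimpleGraph Ω} (hΓ : SR Γ 2304 1328 1280)
    (hn : Fintype.card Ω = 4060) {a b c : Ω} (h : R3 H Γ a b c) (hb : (orbit H b).ncard = 2304)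
    (hc : (orbit H c).ncard = 1755) : Mdl Γ Ru.row 4060 := by
  have R := Bt.reps_sub (Bt.reps_evs Ru.exact.reps (by decide) c3) (evs_stab Ru.exact.reps (by decide) c4)
  have F := Bt.faithful_sub (Ru.faithful.mono (le_top (a := H)))
  have P : Pres Ru.D (⊤ : Subgroup H) Ru.row := pres_sub (L := ⊤) (pres_autG fun g _ => g.2) le_top
  have h0 : ∀ k : H, k • Ru.D.pt 0 = Ru.D.pt 0 := fun k => k.2.2
  obtain ⟨x, hx, fx⟩ := fix_pt Nat.prime_two (((Bt.eqv_sameW R (by decide) F).pc c5).pgroup (by decide)) c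
    (by rw [hc]; decide)
  rw [← orbit_eq_iff.2 hx] at hc
  obtain ⟨U, hU, e⟩ := step1 R (by decide) fx (side_sound P (by decide) c8 h0) hc Ru.card1 c9
  rw [List.mem_singleton.1 hU] at e
  obtain ⟨y, hy, fy⟩ := fix_pt Nat.prime_five (((Bt.eqv_sameW R (by decide) F).pc c6).pgroup (by decide)) b
    (by rw [hb]; decide)
  rw [← orbit_eq_iff.2 hy] at hb
  have h := h.move hy hx
  have h1 := cor_orb R (by decide) d1 hc fun k t => fix_of_set (by decide) (e k t)
  have t1 := step2 R (by decide) h.inv h1.1 h1.2 (by decide) (by decide +kernel) (h.cc hΓ rfl) d3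
  obtain ⟨z, hz, V, hV, t2⟩ := tgt_sound R h.inv h1.1 (step3 hΓ R (by decide) h.inv h1.1 h1.2 (by decide) t1 fy h.nb
    (h.bc hΓ rfl) d5 (m := 75) rfl (by norm_num) (by norm_num)
    (forall_lt_add (allFrom_zero.1 d6) (allFrom_iff.1 d6b)) d7)
  simp only [List.mem_cons, List.not_mem_nil, or_false] at hV
  rcases hV with rfl | rfl | rfl | rfl | rfl
  · have h := h.move hz (mem_orbit_self x)
    exact finish R (by decide) P h.inv (by decide) c7 hn h.fix h0 h.cov' h1 (iff_of_false h.ac.2 (by decide +kernel))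
      (iff_of_true h.ab (by decide +kernel)) t1 t2 d2 (by rw [orbit_eq_iff.2 hz, hb]) (by decide +kernel) (h.bb hΓ) d4
  · exact absurd (hb ▸ walk_sound R h.inv h1.1 hz t2 w0) (by decide +kernel)
  · exact absurd (hb ▸ walk_sound R h.inv h1.1 hz t2 w1) (by decide +kernel)
  · exact absurd (hb ▸ walk_sound R h.inv h1.1 hz t2 w2) (by decide +kernel)
  · exact absurd (hb ▸ walk_sound R h.inv h1.1 hz t2 w3) (by decide +kernel)

end CF.Srg.Ru
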