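import Cfsg.Agent.Srg.Eng

/-! Assembling the graph from the three orbits. -/

set_option autoImplicit false

namespace CF.Srg

open CF.Comp Finset MulAction
open scoped Pointwise _root_.Classical

variable {K Ω X : Type*} [Group K] [MulAction K Ω] [MulAction K X] {Γ : SimpleGraph Ω} {a b y : Ω} {p : X}
  {n : ℕ} {D : Dom X n} {N : List Net} {g : ℕ → K} {row : ℕ → ℕ}

/-- a word maps the set to one of the targets -/
noncomputable def tgt (N : List Net) (ws : List (List ℕ)) (Ts : List ℕ) (U : ℕ) : Bool :=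
  lany (fun w => force (imgW N (nat_lit 1) w U) fun V => lany (Nat.beq V) Ts) ws

theorem tgt_sound (h : Reps D N g) (hΓ : Inv K Γ) (hC : Cor K b p) {ws : List (List ℕ)} {Ts : List ℕ}
    (hU : ∃ U, tgt N ws Ts U = true ∧ D.set U = Nb K Γ b p y) : ∃ z ∈ orbit K y, ∃ V ∈ Ts, Nb K Γ b p z = D.set V := by
  obtain ⟨U, h1, h2⟩ := hU
  obtain ⟨w, -, h3⟩ := lany_iff.1 h1
  rw [force_eq, lany_iff] at h3
  obtain ⟨V, h4, h5⟩ := h3
  exact ⟨_, mem_orbit _ (ev g w), V, h4, by rw [hC.nb_smul hΓ, ← h2, h.smul_set, beq_iff.1 h5]⟩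

theorem land_full_eq {u v : ℕ} (h : D.set u = D.set v) : Nat.land u (full n) = Nat.land v (full n) :=
  Nat.eq_of_testBit_eq fun i => by
    by_cases hi : i < n
    · have := Set.ext_iff.1 h (D.pt i)
      rw [Dom.pt_mem_set hi, Dom.pt_mem_set hi, ← Bool.eq_iff_iff] at this
      simp [this]
    · simp [testBit_full, hi]

/-- a walk through distinct images of a set -/
noncomputable def walk (N : List Net) (n M : ℕ) (L : List ℕ) : ℕ → ℕ → Bool :=
  List.rec (motive := fun _ => ℕ → ℕ → Bool) (fun _ _ => true) (fun x _ ih U S =>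
    force (Nat.mod (Nat.land U (full n)) M) fun c => Bool.rec
      (force (imgW N (nat_lit 1) [x] U) fun U' => force (Nat.lor S (Nat.shiftLeft (nat_lit 1) c)) (ih U')) false (tb S c)) L

theorem walk_aux [Finite Ω] (h : Reps D N g) (hΓ : Inv K Γ) (hC : Cor K b p) {M : ℕ} {L : List ℕ} {U S : ℕ} {z : Ω}
    {Y : Finset Ω} (hz : z ∈ orbit K y) (hU : Nb K Γ b p z = D.set U) (hY : (Y : Set Ω) ⊆ orbit K y)
    (hS : ∀ x ∈ Y, ∀ u, Nb K Γ b p x = D.set u → S.testBit (Nat.land u (full n) % M) = true)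
    (hc : walk N n M L U S = true) : #Y + L.length ≤ (orbit K y).ncard := by
  induction L generalizing U S z Y with
  | nil => exact Set.ncard_coe_finset Y ▸ Set.ncard_le_ncard hY
  | cons x L ih =>
    have e : walk N n M (x :: L) U S = force (Nat.land U (full n) % M) fun c => Bool.rec
      (force (imgW N (nat_lit 1) [x] U) fun U' => force (S ||| Nat.shiftLeft (nat_lit 1) c) (walk N n M L U')) false
      (tb S c) := rfl
    rw [e, force_eq, brec_not_and, force_eq, force_eq, tb_eq, one_shl] at hc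
    have h1 : z ∉ Y := fun c => absurd ((hS z c U hU).symm.trans hc.1) (by simp)
    have := ih (Y := insert z Y) (mem_orbit_of_mem_orbit (ev g [x]) hz) (by rw [hC.nb_smul hΓ, hU, h.smul_set])
      (by rw [coe_insert]; exact Set.insert_subset hz hY) (fun t ht u hu => by
        rw [Nat.testBit_or, Bool.or_eq_true]
        rcases mem_insert.1 ht with rfl | ht
        · rw [land_full_eq (hu.symm.trans hU)]; exact Or.inr Nat.testBit_two_pow_self
        · exact Or.inl (hS t ht u hu)) hc.2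
    rw [card_insert_of_notMem h1] at this
    simp only [List.length_cons]; omega

theorem walk_sound [Finite Ω] (h : Reps D N g) (hΓ : Inv K Γ) (hC : Cor K b p) {M : ℕ} {L : List ℕ} {U : ℕ} {z : Ω}
    (hz : z ∈ orbit K y) (hU : Nb K Γ b p z = D.set U) (hc : walk N n M L U 0 = true) :
    llen L ≤ (orbit K y).ncard := by
  simpa [llen_eq] using walk_aux h hΓ hC (Y := ∅) hz hU (by simp) (by simp) hc

theorem pres_sub {G : Type*} [Group G] [MulAction G X] {H L : Subgroup G} (h : Pres D L row) (hl : H ≤ L) :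
    Pres D (⊤ : Subgroup H) row :=
  ⟨fun g _ => h.cl g (hl g.2), fun g _ => h.rel g (hl g.2)⟩

theorem pres_of_clo {G : Type*} [Group G] [MulAction G X] {f : ℕ → G} (h : Reps D N f) {S : List (List ℕ)}
    (ha : ∀ i, pf N i ∈ autG row n) : Pres D (clo f S) row := by
  have key : ∀ g ∈ clo f S, ∃ σ ∈ autG row n, Acts D σ g := by
    intro g hg
    obtain ⟨w, rfl⟩ := exists_ev_of_mem (clo_le_closure f S hg)
    exact ⟨_, ev_mem ha w, h.acts_ev w⟩
  exact ⟨fun g hg i hi => let ⟨σ, a1, a2⟩ := key g hg; ⟨_, a1.1.lt hi, a2.2 i hi⟩,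
    fun g hg i hi j hj i' hi' j' hj' e e' => by
      obtain ⟨σ, a1, a2⟩ := key g hg
      rw [← D.inj _ (a1.1.lt hi) _ hi' ((a2.2 i hi).symm.trans e), ← D.inj _ (a1.1.lt hj) _ hj' ((a2.2 j hj).symm.trans e'),
        a1.2 i hi j hj]⟩

theorem pres_mem (hP : Pres D (⊤ : Subgroup K) row) (k : K) {j j' : ℕ} (hj : j < n) (hj' : j' < n)
    (e : k • D.pt j = D.pt j') {x : X} (hx : x ∈ D.set (row j)) : k • x ∈ D.set (row j') := by
  obtain ⟨i, hi, a, rfl⟩ := Dom.mem_set.1 hx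
  obtain ⟨i', hi', c⟩ := hP.cl k trivial i hi
  rw [c, Dom.pt_mem_set hi', ← hP.rel k trivial i hi j hj i' hi' j' hj' c e, a]

/-- the three orbits, symmetry, and the trace of row `i2` on the first orbit -/
noncomputable def asmOK (row : ℕ → ℕ) (n d i0 i1 i2 O1 O2 : ℕ) : Bool :=
  force (row i0) fun r0 => force (row i1) fun r1 => force (row i2) fun r2 => force (Nat.land O1 (full n)) fun O =>
    force (Nat.land r2 O) fun u => Bool.rec false (allBin (fun j => force (row j) fun r => lall (fun t => t)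
      [Bool.rec (Bool.rec true false (tb r0 j)) (tb r0 j) (tb r i0), Bool.rec (Bool.rec true false (tb r1 j)) (tb r1 j) (tb r i1),
        Bool.rec (Bool.rec true false (tb r2 j)) (tb r2 j) (tb r i2),
        Bool.rec true (Nat.beq j i2) (Nat.beq (Nat.land r O) u)]) n d (nat_lit 0))
      (lall (fun t => t) [Nat.ble (Nat.succ i0) n, Nat.ble (Nat.succ i1) n, Nat.ble (Nat.succ i2) n,
        Nat.beq (Nat.lor (Nat.lor O1 O2) (Nat.shiftLeft (nat_lit 1) i0)) (full n), Bool.rec true false (tb O1 i0),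
        Bool.rec true false (tb O2 i0), Bool.rec true false (tb O1 i2), Bool.rec true false (tb r0 i0)])

theorem brec_iff {a b : Bool} : (Bool.rec (Bool.rec true false b) b a : Bool) = true ↔ a = b := by
  cases a <;> cases b <;> simp

theorem brec_not {a : Bool} : (Bool.rec true false a : Bool) = true ↔ a = false := by cases a <;> simp

theorem asm_spec {d i0 i1 i2 O1 O2 : ℕ} (hd : n ≤ 2 ^ d) (hc : asmOK row n d i0 i1 i2 O1 O2 = true) :
    (i0 < n ∧ i1 < n ∧ i2 < n ∧ Nat.lor (Nat.lor O1 O2) (Nat.shiftLeft (nat_lit 1) i0) = full n ∧ O1.testBit i0 = false ∧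
      O2.testBit i0 = false ∧ O1.testBit i2 = false ∧ (row i0).testBit i0 = false) ∧
    ∀ j < n, (row j).testBit i0 = (row i0).testBit j ∧ (row j).testBit i1 = (row i1).testBit j ∧
      (row j).testBit i2 = (row i2).testBit j ∧ (Nat.land (row j) (Nat.land O1 (full n)) =
        Nat.land (row i2) (Nat.land O1 (full n)) → j = i2) := by
  simp only [asmOK, force_eq, brec_and] at hc
  refine ⟨by simpa only [lall_iff, List.forall_mem_cons, ble_iff, beq_iff, brec_not, tb_eq, List.not_mem_nil, false_imp_iff,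
    implies_true, and_true, Nat.succ_le_iff] using hc.1, fun j hj => ?_⟩
  simpa only [lall_iff, List.forall_mem_cons, brec_iff, beq_iff, brec_imp, tb_eq, List.not_mem_nil, false_imp_iff,
    implies_true, and_true] using allBin_spec hc.2 hd j hj

theorem fix_of_nb (hP : Pres D (⊤ : Subgroup K) row) (hΓ : Inv K Γ) {d i0 i1 i2 O1 O2 : ℕ} (hd : n ≤ 2 ^ d)
    (hc : asmOK row n d i0 i1 i2 O1 O2 = true) (h1 : Cor K b (D.pt i1)) (o1 : orbit K (D.pt i1) = D.set O1)
    (t2 : Nb K Γ b (D.pt i1) y = D.set (Nat.land (row i2) O1)) (k : K) (hk : k • y = y) : k • D.pt i2 = D.pt i2 := by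
  obtain ⟨⟨-, -, c2, -⟩, c⟩ := asm_spec hd hc
  obtain ⟨j, hj, e⟩ := hP.cl k trivial i2 c2
  rw [e, (c j hj).2.2.2 ?_]
  have : D.set (Nat.land (row j) O1) = D.set (Nat.land (row i2) O1) := by
    rw [← t2, ← hk, h1.nb_smul hΓ, t2, D.set_land, D.set_land, Set.smul_set_inter, ← o1, smul_orbit]
    congr 1
    ext x
    rw [Set.mem_smul_set_iff_inv_smul_mem]
    exact ⟨pres_mem hP k⁻¹ hj c2 (by rw [← e, inv_smul_smul]), fun a => smul_inv_smul k x ▸ pres_mem hP k c2 hj e a⟩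
  exact (Nat.and_assoc _ _ _).symm.trans ((land_full_eq this).trans (Nat.and_assoc _ _ _))

theorem assemble [Fintype Ω] (hP : Pres D (⊤ : Subgroup K) row) (hΓ : Inv K Γ) {d i0 i1 i2 O1 O2 : ℕ} (hd : n ≤ 2 ^ d)
    (hc : asmOK row n d i0 i1 i2 O1 O2 = true) (hn : Fintype.card Ω = n) (ha : ∀ k : K, k • a = a)
    (h0 : ∀ k : K, k • D.pt i0 = D.pt i0) (cov : ∀ x, x ≠ a → x ∉ orbit K b → x ∈ orbit K y)
    (h1 : Cor K b (D.pt i1)) (o1 : orbit K (D.pt i1) = D.set O1) (h2 : Cor K y (D.pt i2))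
    (o2 : orbit K (D.pt i2) = D.set O2) (a1 : Γ.Adj a b ↔ (row i0).testBit i1 = true)
    (a2 : Γ.Adj a y ↔ (row i0).testBit i2 = true) (t1 : Nb K Γ b (D.pt i1) b = D.set (Nat.land (row i1) O1))
    (t2 : Nb K Γ b (D.pt i1) y = D.set (Nat.land (row i2) O1))
    (t3 : Nb K Γ y (D.pt i2) y = D.set (Nat.land (row i2) O2)) : Mdl Γ row n := by
  obtain ⟨⟨c0, c1, c2, c3, c4, c5, c6, c7⟩, c⟩ := asm_spec hd hc
  let F : X → Ω := fun q => if q ∈ orbit K (D.pt i1) then bt K b (D.pt i1) q else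
    if q ∈ orbit K (D.pt i2) then bt K y (D.pt i2) q else a
  have so : ∀ (k : K) (q p : X), k • q ∈ orbit K p ↔ q ∈ orbit K p := fun k q p => by
    rw [← orbit_eq_iff, orbit_smul, orbit_eq_iff]
  have n2 : ∀ k : K, k • D.pt i2 ∉ orbit K (D.pt i1) := fun k => by rw [so, o1, Dom.pt_mem_set c2, c6]; simp
  have f0 : F (D.pt i0) = a := by
    simp only [F, o1, o2, Dom.pt_mem_set c0, c4, c5, Bool.false_eq_true, if_false]
  have f1 : ∀ k : K, F (k • D.pt i1) = k • b := fun k => (if_pos (mem_orbit _ k)).trans (h1.bt_smul k)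
  have f2 : ∀ k : K, F (k • D.pt i2) = k • y := fun k =>
    (if_neg (n2 k)).trans ((if_pos (mem_orbit _ k)).trans (h2.bt_smul k))
  have cv : ∀ i < n, ∃ k : K, k • D.pt i0 = D.pt i ∨ k • D.pt i1 = D.pt i ∨ k • D.pt i2 = D.pt i := fun i hi => by
    have := Dom.mem_set_full.2 ⟨i, hi, rfl (a := D.pt i)⟩
    rw [← c3, D.set_lor, D.set_lor, ← o1, ← o2, D.set_shl c0] at this
    rcases this with (⟨k, e⟩ | ⟨k, e⟩) | e
    exacts [⟨k, .inr (.inl e)⟩, ⟨k, .inr (.inr e)⟩, ⟨1, .inl ((h0 1).trans e.symm)⟩]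
  have fe : ∀ (k : K), ∀ i < n, F (k • D.pt i) = k • F (D.pt i) := fun k i hi => by
    obtain ⟨t, e | e | e⟩ := cv i hi <;> rw [← e, ← mul_smul]
    · rw [h0, h0, f0, ha]
    · rw [f1, f1, mul_smul]
    · rw [f2, f2, mul_smul]
  have sym : ∀ i < n, ∀ j < n, (row j).testBit i = (row i).testBit j := fun i hi j hj => by
    obtain ⟨t, e⟩ := cv i hi
    obtain ⟨j', hj', e'⟩ := hP.cl t⁻¹ trivial j hj
    have e'' := inv_smul_eq_iff.1 e'
    rcases e with e | e | e
    · rw [← hP.rel t trivial _ c0 _ hj' _ hi _ hj e e''.symm, ← hP.rel t trivial _ hj' _ c0 _ hj _ hi e''.symm e, (c _ hj').1]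
    · rw [← hP.rel t trivial _ c1 _ hj' _ hi _ hj e e''.symm, ← hP.rel t trivial _ hj' _ c1 _ hj _ hi e''.symm e,
        (c _ hj').2.1]
    · rw [← hP.rel t trivial _ c2 _ hj' _ hi _ hj e e''.symm, ← hP.rel t trivial _ hj' _ c2 _ hj _ hi e''.symm e,
        (c _ hj').2.2.1]
  let W : ℕ → ℕ → Prop := fun i j => Γ.Adj (F (D.pt i)) (F (D.pt j)) ↔ (row j).testBit i = true
  have ws : ∀ i < n, ∀ j < n, W i j → W j i := fun i hi j hj e => by
    simp only [W] at e ⊢; rw [Γ.adj_comm, e, sym i hi j hj]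
  have wm : ∀ (k : K), ∀ i < n, ∀ j < n, ∀ i' < n, ∀ j' < n, k • D.pt i = D.pt i' → k • D.pt j = D.pt j' → W i j →
      W i' j' := fun k i hi j hj i' hi' j' hj' e e' w => by
    simp only [W] at w ⊢
    rw [← hP.rel k trivial i hi j hj i' hi' j' hj' e e', ← e, ← e', fe k i hi, fe k j hj, hΓ, w]
  have g1 := (congrArg F (one_smul K _)).symm.trans ((f1 1).trans (one_smul _ _))
  have g2 := (congrArg F (one_smul K _)).symm.trans ((f2 1).trans (one_smul _ _))
  have w0 : ∀ i < n, W i i0 := fun i hi => by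
    obtain ⟨t, e | e | e⟩ := cv i hi
    · exact wm t _ c0 _ c0 _ hi _ c0 e (h0 t) (by simp [W, c7])
    · exact wm t _ c1 _ c0 _ hi _ c0 e (h0 t) (by simp only [W]; rw [f0, g1, Γ.adj_comm, a1])
    · exact wm t _ c2 _ c0 _ hi _ c0 e (h0 t) (by simp only [W]; rw [f0, g2, Γ.adj_comm, a2])
  have w1 : ∀ {z : Ω} {j : ℕ}, F (D.pt j) = z → Nb K Γ b (D.pt i1) z = D.set (Nat.land (row j) O1) → ∀ i < n,
      D.pt i ∈ orbit K (D.pt i1) → W i j := fun e t i hi m => by
    have := Set.ext_iff.1 t (D.pt i)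
    rw [D.set_land, ← o1, Set.mem_inter_iff, Dom.pt_mem_set hi, and_iff_left m, Nb, Set.mem_ofPred_eq,
      and_iff_right m] at this
    simp only [W]; rw [e, Γ.adj_comm, ← this, show F (D.pt i) = _ from if_pos m]
  have w2 : ∀ i < n, W i i2 := fun i hi => by
    obtain ⟨t, e | e | e⟩ := cv i hi
    · rw [h0] at e; rw [← D.inj _ c0 _ hi e]; exact ws _ c2 _ c0 (w0 _ c2)
    · exact w1 g2 t2 i hi ⟨t, e⟩
    · have := Set.ext_iff.1 t3 (D.pt i)
      have m : D.pt i ∈ orbit K (D.pt i2) := ⟨t, e⟩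
      rw [D.set_land, ← o2, Set.mem_inter_iff, Dom.pt_mem_set hi, and_iff_left m, Nb, Set.mem_ofPred_eq,
        and_iff_right m] at this
      simp only [W]; rw [g2, Γ.adj_comm, ← this, ← e, f2, h2.bt_smul]
  have w3 : ∀ j < n, ∀ j0 < n, (∃ t : K, t • D.pt j0 = D.pt j) → (∀ i < n, W i j0) → ∀ i < n, W i j :=
    fun j hj j0 hj0 ⟨t, e⟩ w i hi => by
      obtain ⟨i', hi', e'⟩ := hP.cl t⁻¹ trivial i hi
      exact wm t _ hi' _ hj0 _ hi _ hj (inv_smul_eq_iff.1 e').symm e (w _ hi')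
  have w4 : ∀ i < n, W i i1 := fun i hi => by
    obtain ⟨t, e | e | e⟩ := cv i hi
    · exact ws _ c1 _ hi (w3 i hi _ c0 ⟨t, e⟩ w0 _ c1)
    · exact w1 g1 t1 i hi ⟨t, e⟩
    · exact ws _ c1 _ hi (w3 i hi _ c2 ⟨t, e⟩ w2 _ c1)
  have sj : ∀ x, ∃ i < n, F (D.pt i) = x := fun x => by
    by_cases e : x = a
    · exact ⟨_, c0, f0.trans e.symm⟩
    · by_cases e' : x ∈ orbit K b
      · obtain ⟨t, rfl⟩ := e'
        obtain ⟨i, hi, e⟩ := hP.cl t trivial _ c1
        exact ⟨i, hi, e ▸ f1 t⟩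
      · obtain ⟨t, rfl⟩ := cov x e e'
        obtain ⟨i, hi, e⟩ := hP.cl t trivial _ c2
        exact ⟨i, hi, e ▸ f2 t⟩
  have bj := ((Fintype.bijective_iff_surjective_and_card (fun i : Fin n => F (D.pt i))).2
    ⟨fun x => let ⟨i, hi, e⟩ := sj x; ⟨⟨i, hi⟩, e⟩, by simp [hn]⟩).1
  refine ⟨⟨fun i => F (D.pt i), fun i hi j hj e => congrArg Fin.val (@bj ⟨i, hi⟩ ⟨j, hj⟩ e)⟩, sj, fun i hi j hj => ?_⟩
  obtain ⟨t, e | e | e⟩ := cv j hj
  exacts [w3 j hj _ c0 ⟨t, e⟩ w0 i hi, w3 j hj _ c1 ⟨t, e⟩ w4 i hi, w3 j hj _ c2 ⟨t, e⟩ w2 i hi]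

end CF.Srg
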