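import Cfsg.Agent.Srg.Basic
import Cfsg.Agent.Comp.Refine2

/-! Graphs given by a table of rows. -/

set_option autoImplicit false

namespace CF.Srg

open CF.Comp

variable {Ω : Type*} {Γ : SimpleGraph Ω} {row : ℕ → ℕ} {n d k l μ s : ℕ}

/-- the graph is the one given by the rows -/
def Mdl (Γ : SimpleGraph Ω) (row : ℕ → ℕ) (n : ℕ) : Prop :=
  ∃ D : Dom Ω n, D.Full ∧ ∀ i < n, ∀ j < n, Γ.Adj (D.pt i) (D.pt j) ↔ (row j).testBit i = true

theorem Mdl.of_iso {Ω' : Type*} {Γ' : SimpleGraph Ω'} (h : Mdl Γ row n) (e : Γ ≃g Γ') : Mdl Γ' row n := by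
  obtain ⟨D, h1, h2⟩ := h
  refine ⟨⟨fun i => e (D.pt i), fun i hi j hj c => D.inj i hi j hj (e.injective c)⟩, fun x => ?_, fun i hi j hj => ?_⟩
  · obtain ⟨i, hi, c⟩ := h1 (e.symm x)
    exact ⟨i, hi, by simp [c]⟩
  · exact e.map_adj_iff.trans (h2 i hi j hj)

theorem Mdl.pres {G : Type*} [Group G] [MulAction G Ω] {D : Dom Ω n} (h1 : D.Full)
    (h2 : ∀ i < n, ∀ j < n, Γ.Adj (D.pt i) (D.pt j) ↔ (row j).testBit i = true)
    (hG : ∀ (g : G) x y, Γ.Adj (g • x) (g • y) ↔ Γ.Adj x y) : Pres D (⊤ : Subgroup G) row :=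
  ⟨fun g _ i _ => let ⟨j, hj, e⟩ := h1 (g • D.pt i); ⟨j, hj, e.symm⟩, fun g _ i hi j hj i' hi' j' hj' e e' => by
    rw [Bool.eq_iff_iff, ← h2 i hi j hj, ← h2 i' hi' j' hj', ← e, ← e', hG]⟩

theorem Mdl.exists_hom (h : Mdl Γ row n) (G : Subgroup (Equiv.Perm Ω))
    (hG : ∀ (g : G) x y, Γ.Adj (g • x) (g • y) ↔ Γ.Adj x y) : ∃ φ : G →* autG row n, Function.Injective φ := by
  obtain ⟨D, h1, h2⟩ := h
  obtain ⟨φ, hφ⟩ := (Mdl.pres h1 h2 hG).exists_hom
  refine ⟨φ, (injective_iff_map_eq_one φ).2 fun g e => Subtype.ext (Equiv.ext fun x => ?_)⟩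
  obtain ⟨i, hi, rfl⟩ := h1 x
  exact (hφ g i hi).trans (by rw [e]; rfl)

theorem Mdl.aut_equiv (h : Mdl Γ row n) : Nonempty ((Γ ≃g Γ) ≃* autG row n) := by
  obtain ⟨D, h1, h2⟩ := h
  obtain ⟨φ, hφ⟩ := (Mdl.pres (G := Γ ≃g Γ) h1 h2 fun g x y => g.map_adj_iff).exists_hom
  refine ⟨MulEquiv.ofBijective φ ⟨(injective_iff_map_eq_one φ).2 fun g e => RelIso.ext fun x => ?_, fun σ => ?_⟩⟩
  · obtain ⟨i, hi, rfl⟩ := h1 x
    exact (hφ g i hi).trans (by rw [e]; rfl)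
  · obtain ⟨g, hg⟩ := h1.exists_perm σ.2.1
    refine ⟨⟨g, fun {x y} => ?_⟩, Subtype.ext ((φ _).2.1.ext σ.2.1 fun i hi => ?_)⟩
    · obtain ⟨i, hi, rfl⟩ := h1 x
      obtain ⟨j, hj, rfl⟩ := h1 y
      rw [hg i hi, hg j hj, h2 _ (σ.2.1.lt hi) _ (σ.2.1.lt hj), h2 i hi j hj, σ.2.2 i hi j hj]
    · exact D.inj _ ((φ _).2.1.lt hi) _ (σ.2.1.lt hi) ((hφ _ i hi).symm.trans (hg i hi))

/-- the net keeps the rows -/
noncomputable def autR (row : ℕ → ℕ) (n d : ℕ) (ν : Net) : Bool :=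
  Bool.rec false (allBin (fun j => Nat.beq (force (row j) (ν.fwd (nat_lit 1))) (force (ν.app j) row)) n d (nat_lit 0))
    (ν.wf (Nat.shiftLeft (nat_lit 1) n))

theorem mem_autR {ν : Net} (hd : n ≤ 2 ^ d) (h : autR row n d ν = true) : ν.perm ∈ autG row n := by
  rw [autR, brec_and, one_shl] at h
  refine ⟨Net.supp h.1, fun i hi j hj => ?_⟩
  have h1 := allBin_spec h.2 hd j hj
  rw [force_eq, force_eq, beq_iff, Net.app_eq h.1 hj] at h1
  have h5 := (Net.img_fwd (isRepl_one n) h.1 (row j)).1 i hi 0 (by omega)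
  simp only [mul_zero, add_zero] at h5
  rw [← h1]; exact h5

theorem pf_mem_autR {nets : List Net} (hd : n ≤ 2 ^ d) (h : lall (autR row n d) nets = true) (i : ℕ) :
    pf nets i ∈ autG row n := by
  rcases nth_mem_or Net.nil nets i with e | e
  · exact mem_autR hd (lall_iff.1 h _ e)
  · rw [pf, e]; exact one_mem _

theorem hom_of_clo {G X : Type*} [Group G] [MulAction G X] {D : Dom X n} {nets : List Net} {f : ℕ → G}
    (h : Reps D nets f) {S : List (List ℕ)} (ha : ∀ w ∈ S, ev (pf nets) w ∈ autG row n) {H : Subgroup G}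
    (hH : clo f S = H) (hF : Faithful D H) : ∃ φ : H →* autG row n, Function.Injective φ := by
  have key : ∀ g ∈ H, ∃ σ ∈ autG row n, Acts D σ g := by
    subst hH
    intro g hg
    induction hg using Subgroup.closure_induction with
    | mem x hx => obtain ⟨w, hw, rfl⟩ := hx; exact ⟨_, ha w hw, h.acts_ev w⟩
    | one => exact ⟨1, one_mem _, Acts.one D⟩
    | mul x y _ _ a b => obtain ⟨σ, a1, a2⟩ := a; obtain ⟨τ, b1, b2⟩ := b; exact ⟨_, mul_mem a1 b1, a2.mul b2⟩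
    | inv x _ a => obtain ⟨σ, a1, a2⟩ := a; exact ⟨_, inv_mem a1, a2.inv⟩
  have hP : Pres D (⊤ : Subgroup H) row := ⟨fun g _ i hi => let ⟨σ, a1, a2⟩ := key g g.2; ⟨_, a1.1.lt hi, a2.2 i hi⟩,
    fun g _ i hi j hj i' hi' j' hj' e e' => by
      obtain ⟨σ, a1, a2⟩ := key g g.2
      rw [← D.inj _ (a1.1.lt hi) _ hi' ((a2.2 i hi).symm.trans e), ← D.inj _ (a1.1.lt hj) _ hj' ((a2.2 j hj).symm.trans e'),
        a1.2 i hi j hj]⟩
  obtain ⟨φ, hφ⟩ := hP.exists_hom
  exact ⟨φ, (injective_iff_map_eq_one φ).2 fun g e => Subtype.ext (hF g g.2 fun i hi =>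
    (hφ g i hi).trans (by rw [e]; rfl))⟩

theorem hom_of_exact {G X : Type*} [Group G] [MulAction G X] {D : Dom X n} {nets : List Net} {f : ℕ → G}
    {c : List Lvl} {H : Subgroup G} (h : Exact D nets f c H) (ha : ∀ i, pf nets i ∈ autG row n) :
    ∃ φ : H →* autG row n, Function.Injective φ :=
  hom_of_clo h.reps (fun w _ => ev_mem ha w) h.eq_clo h.faithful

theorem autG_le (hn : n < 16777215) (hd : n ≤ 2 ^ d) {σ : Net} {rs : List ℕ} {L : List RI} (hs : s ≠ 0)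
    (hl : refOK row n d σ rs L s = true) : Finite (autG row n) ∧ Nat.card (autG row n) ≤ s :=
  (pres_autG (φ := MonoidHom.id _) (H := autG row n) fun _ h => h).card_le_of_faithful hn hd hs hl
    fun _ hg e => hg.1.ext (Supp.one n) e

/-- the rows are symmetric and have no loops -/
noncomputable def symR (row : ℕ → ℕ) (n d : ℕ) : Bool :=
  allBin (fun i => force (row i) fun r => Bool.rec (allBin (fun j =>
    Bool.rec (Bool.rec true false (tb (row j) i)) (tb (row j) i) (tb r j)) n d (nat_lit 0)) false (tb r i)) n d (nat_lit 0)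

/-- the graph of the rows -/
def rowG (row : ℕ → ℕ) (n : ℕ) : SimpleGraph (Fin n) := SimpleGraph.fromRel fun i j => (row j).testBit i = true

theorem mdl_rowG (h0 : n ≠ 0) (hd : n ≤ 2 ^ d) (h : symR row n d = true) : Mdl (rowG row n) row n := by
  have h1 : ∀ i < n, (row i).testBit i = false ∧ ∀ j < n, (row i).testBit j = (row j).testBit i := fun i hi => by
    have h2 := allBin_spec h hd i hi
    rw [force_eq, brec_not_and, tb_eq] at h2
    refine ⟨h2.1, fun j hj => ?_⟩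
    have h3 := allBin_spec h2.2 hd j hj
    rw [tb_eq, tb_eq] at h3
    revert h3; cases (row i).testBit j <;> cases (row j).testBit i <;> simp
  rcases n with _ | n
  · exact absurd rfl h0
  have e : ∀ i < n + 1, ((Fin.ofNat (n + 1) i : Fin (n + 1)) : ℕ) = i := fun i hi => Nat.mod_eq_of_lt hi
  refine ⟨⟨Fin.ofNat (n + 1), fun i hi j hj c => by rw [← e i hi, c, e j hj]⟩, fun x => ⟨x, x.2, Fin.ext (e _ x.2)⟩,
    fun i hi j hj => ?_⟩
  simp only [rowG, SimpleGraph.fromRel_adj, e i hi, e j hj, (h1 i hi).2 j hj, or_self, and_iff_right_iff_imp]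
  intro c c'
  have : i = j := by rw [← e i hi, c', e j hj]
  subst this
  simp [(h1 i hi).1] at c

/-- the numbers of common neighbours -/
noncomputable def srR (row : ℕ → ℕ) (n d k l μ : ℕ) : Bool :=
  allBin (fun i => force (Nat.land (row i) (full n)) fun r => allBin (fun j =>
    Nat.beq (pop n (Nat.land r (row j))) (Bool.rec (Bool.rec μ l (tb r j)) k (Nat.beq i j))) n d (nat_lit 0)) n d (nat_lit 0)

theorem Mdl.sr (h : Mdl Γ row n) (hn : n < 16777215) (hd : n ≤ 2 ^ d) (hs : srR row n d k l μ = true) : SR Γ k l μ := by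
  obtain ⟨D, h1, h2⟩ := h
  have key : ∀ i < n, ∀ j < n, {z | Γ.Adj (D.pt i) z ∧ Γ.Adj (D.pt j) z}.ncard =
      (Bool.rec (Bool.rec μ l ((row i).testBit j)) k (Nat.beq i j) : ℕ) := fun i hi j hj => by
    have h3 := allBin_spec hs hd i hi
    rw [force_eq] at h3
    have h4 := allBin_spec h3 hd j hj
    rw [beq_iff, pop_eq hn (fun x hx => by simp [testBit_full, hx]), tb_eq, ← D.ncard_set] at h4
    have e : (Nat.land (row i) (full n)).testBit j = (row i).testBit j := by simp [testBit_full, hj]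
    rw [← e, ← h4]
    congr 1
    ext z
    obtain ⟨t, ht, rfl⟩ := h1 z
    rw [Dom.pt_mem_set ht, Set.mem_ofPred_eq, Γ.adj_comm, Γ.adj_comm (D.pt j), h2 t ht i hi, h2 t ht j hj]
    simp [testBit_full, ht]
  refine ⟨fun x => ?_, fun x y a => ?_, fun x y e a => ?_⟩
  · obtain ⟨i, hi, rfl⟩ := h1 x
    simpa [beq_iff.2 (rfl : i = i)] using key i hi i hi
  · obtain ⟨i, hi, rfl⟩ := h1 x
    obtain ⟨j, hj, rfl⟩ := h1 y
    rw [key i hi j hj, beq_false_iff.2 fun c => a.ne (by rw [c]), (h2 j hj i hi).1 a.symm]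
  · obtain ⟨i, hi, rfl⟩ := h1 x
    obtain ⟨j, hj, rfl⟩ := h1 y
    rw [key i hi j hj, beq_false_iff.2 fun c => e (by rw [c]),
      Bool.eq_false_iff.2 fun c => a ((h2 j hj i hi).2 c).symm]

end CF.Srg
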