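import Cfsg.Agent.Srg.Eq
import Cfsg.Agent.Srg.Rows

/-! A search through the unions of orbits that satisfy linear conditions. -/

set_option autoImplicit false

namespace CF.Srg

open CF.Comp Finset
open scoped Pointwise

/-- evaluate an integer first -/
noncomputable def fz {α : Type} (x : ℤ) (k : ℤ → α) : α :=
  Int.rec (fun n => force n fun n => k (Int.ofNat n)) (fun n => force n fun n => k (Int.negSucc n)) x

theorem fz_eq {α : Type} (x : ℤ) (k : ℤ → α) : fz x k = k x := by cases x <;> exact force_eq _ fun n => k _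

/-- evaluate a list of integers first -/
noncomputable def fzL {α : Type} (l : List ℤ) : (List ℤ → α) → α :=
  List.rec (motive := fun _ => (List ℤ → α) → α) (fun k => k []) (fun x _ ih k => fz x fun v => ih fun r => k (v :: r)) l

theorem fzL_eq {α : Type} (l : List ℤ) (k : List ℤ → α) : fzL l k = k l := by
  induction l generalizing k with
  | nil => rfl
  | cons x t ih => exact (fz_eq x fun v => fzL t fun r => k (v :: r)).trans (ih _)

/-- equality of integers -/
noncomputable def zeq (a b : ℤ) : Bool :=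
  Int.rec (fun m => Int.rec (fun n => Nat.beq m n) (fun _ => false) b)
    (fun m => Int.rec (fun _ => false) (fun n => Nat.beq m n) b) a

theorem zeq_iff {a b : ℤ} : zeq a b = true ↔ a = b := by
  cases a <;> cases b <;> simp [zeq, beq_iff]

/-- the sum of the products at the bits of `Z` -/
noncomputable def dotZ (e : List ℤ) : List ℕ → ℕ → ℤ → ℤ :=
  List.rec (motive := fun _ => List ℕ → ℕ → ℤ → ℤ) (fun _ _ a => a) (fun x _ ih sz Z a =>
    List.rec (motive := fun _ => ℤ) a (fun s sz' _ => force (Nat.shiftRight Z (nat_lit 1)) fun Z' =>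
      Bool.rec (fz (Int.add a (Int.mul (Int.ofNat s) x)) (ih sz' Z')) (ih sz' Z' a)
        (Nat.beq (Nat.land Z (nat_lit 1)) (nat_lit 0))) sz) e

theorem dotZ_eq {e : List ℤ} {m : ℕ} (h : e.length ≤ m) (sz : List ℕ) (Z : ℕ) (a : ℤ) :
    dotZ e sz Z a = a + ∑ t ∈ range m, if Z.testBit t then (nth 0 sz t : ℕ) * nth 0 e t else 0 := by
  induction e generalizing m sz Z a with
  | nil => simp [dotZ]
  | cons x e ih =>
    cases sz with
    | nil => simp [dotZ]
    | cons s sz =>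
      obtain ⟨m, rfl⟩ : ∃ k, m = k + 1 := ⟨m - 1, by simp at h; omega⟩
      have e1 : dotZ (x :: e) (s :: sz) Z a = Bool.rec (fz (a + s * x) (dotZ e sz (Z >>> 1))) (dotZ e sz (Z >>> 1) a)
        (Nat.beq (Z &&& 1) 0) := force_eq (Z >>> 1) fun Z' => Bool.rec (motive := fun _ => ℤ)
          (fz (a + s * x) (dotZ e sz Z')) (dotZ e sz Z' a) (Nat.beq (Z &&& 1) 0)
      have h' : e.length ≤ m := by simpa using h
      rw [e1, fz_eq, ih h', ih h', sum_range_succ', Nat.and_one_is_mod, Nat.testBit_zero]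
      simp only [Nat.testBit_shiftRight, add_comm 1, nth_succ, nth_zero]
      rcases Nat.mod_two_eq_zero_or_one Z with c | c <;> simp [c, Nat.beq]
      ring

theorem dotZ_full {e : List ℤ} {m : ℕ} (h : e.length ≤ m) (sz : List ℕ) :
    dotZ e sz (full m) 0 = ∑ t ∈ range m, (nth 0 sz t : ℕ) * nth 0 e t := by
  rw [dotZ_eq h, zero_add]
  exact sum_congr rfl fun t ht => by simp [testBit_full, mem_range.1 ht]

/-- the union -/
noncomputable def lorL (l : List ℕ) : ℕ :=
  List.rec (motive := fun _ => ℕ) (nat_lit 0) (fun x _ r => Nat.lor x r) l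

theorem testBit_lorL {l : List ℕ} {i : ℕ} (h : (lorL l).testBit i = true) :
    ∃ t < l.length, (nth 0 l t).testBit i = true := by
  induction l with
  | nil => simp [lorL] at h
  | cons x l ih =>
    rw [show lorL (x :: l) = x ||| lorL l from rfl, Nat.testBit_or, Bool.or_eq_true] at h
    rcases h with h | h
    · exact ⟨0, by simp, h⟩
    · obtain ⟨t, ht, e⟩ := ih h
      exact ⟨t + 1, by simpa using ht, e⟩

/-- the search -/
noncomputable def dfs (sz : List ℕ) (cs : List (List ℤ × ℤ)) (s : ℤ) (leaf : ℕ → Bool) (Os : List ℕ) :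
    ℕ → ℕ → ℕ → Bool :=
  List.rec (motive := fun _ => ℕ → ℕ → ℕ → Bool) (fun _ _ U => leaf U) (fun O _ ih j Z U =>
    Prod.rec (fun e c => force (Nat.succ j) fun j' => fz (Int.mul c s) fun d => Bool.rec false
      (force (Nat.lor Z (Nat.shiftLeft (nat_lit 1) j)) fun Z' =>
        Bool.rec true (force (Nat.lor U O) (ih j' Z')) (zeq (dotZ e sz Z' (Int.ofNat (nat_lit 0))) d))
      (Bool.rec true (ih j' Z U) (zeq (dotZ e sz Z (Int.ofNat (nat_lit 0))) d)))
      (nth ([], Int.ofNat (nat_lit 0)) cs j)) Os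

theorem dfs_aux {sz : List ℕ} {cs : List (List ℤ × ℤ)} {s : ℤ} {leaf : ℕ → Bool} {m : ℕ} {z : ℕ → Bool} {O : ℕ → ℕ}
    (hc : ∀ j < m, (nth ([], 0) cs j).1.length ≤ j + 1 ∧ (∑ t ∈ range m, if z t then
      (nth 0 sz t : ℕ) * nth 0 (nth ([], 0) cs j).1 t else 0) = (nth ([], 0) cs j).2 * s)
    {Os : List ℕ} {j Z U : ℕ} (hO : ∀ t < Os.length, nth 0 Os t = O (j + t)) (hl : Os.length + j = m)
    (hZ : ∀ t, Z.testBit t = (decide (t < j) && z t))
    (hU : ∀ i, U.testBit i = true ↔ ∃ t < j, z t = true ∧ (O t).testBit i = true)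
    (h : dfs sz cs s leaf Os j Z U = true) :
    ∃ U, leaf U = true ∧ ∀ i, U.testBit i = true ↔ ∃ t < m, z t = true ∧ (O t).testBit i = true := by
  induction Os generalizing j Z U with
  | nil => exact ⟨U, h, by simpa [← hl] using hU⟩
  | cons o Os ih =>
    have hj : j < m := by simp at hl; omega
    obtain ⟨c1, c2⟩ := hc j hj
    have e1 : dfs sz cs s leaf (o :: Os) j Z U = Prod.rec (fun e c => force (j + 1) fun j' => fz (c * s) fun d =>
      Bool.rec false (force (Z ||| Nat.shiftLeft (nat_lit 1) j) fun Z' =>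
        Bool.rec true (force (U ||| o) (dfs sz cs s leaf Os j' Z')) (zeq (dotZ e sz Z' 0) d))
      (Bool.rec true (dfs sz cs s leaf Os j' Z U) (zeq (dotZ e sz Z 0) d))) (nth ([], 0) cs j) := rfl
    rw [e1] at h
    generalize nth ([], 0) cs j = c at h c1 c2
    obtain ⟨e, c⟩ := c
    simp only [force_eq, fz_eq, brec_and, brec_imp, zeq_iff, one_shl] at h c1 c2
    have key : ∀ Z' : ℕ, (∀ t, Z'.testBit t = (decide (t < j + 1) && z t)) → dotZ e sz Z' 0 = c * s := fun Z' hZ' => by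
      rw [dotZ_eq (c1.trans hj), zero_add, ← c2]
      refine sum_congr rfl fun t _ => ?_
      by_cases d : t < j + 1
      · simp [hZ', d]
      · simp [nth_of_le (0 : ℤ) (c1.trans (not_lt.1 d))]
    have hO' : ∀ t < Os.length, nth 0 Os t = O (j + 1 + t) := fun t ht => by
      rw [add_right_comm, add_assoc, ← hO (t + 1) (by simpa using ht), nth_succ]
    have h0 : o = O j := hO 0 (by simp)
    have hl' : Os.length + (j + 1) = m := by simp at hl; omega
    cases hz : z j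
    · have hZ' : ∀ t, Z.testBit t = (decide (t < j + 1) && z t) := fun t => by
        rw [hZ]; by_cases d : t = j
        · simp [d, hz]
        · simp [show t < j + 1 ↔ t < j by omega]
      refine ih hO' hl' hZ' (fun i => (hU i).trans ⟨fun ⟨t, a, b⟩ => ⟨t, by omega, b⟩, fun ⟨t, a, b⟩ => ⟨t, ?_, b⟩⟩)
        (h.1 (key Z hZ'))
      by_contra d
      rw [show t = j by omega, hz] at b
      simp at b
    · have hZ' : ∀ t, (Z ||| 2 ^ j).testBit t = (decide (t < j + 1) && z t) := fun t => by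
        rw [Nat.testBit_or, hZ, Nat.testBit_two_pow]; by_cases d : t = j
        · simp [d, hz]
        · simp [show t < j + 1 ↔ t < j by omega, Ne.symm d]
      refine ih hO' hl' hZ' (fun i => ?_) (h.2 (key _ hZ'))
      rw [Nat.testBit_or, Bool.or_eq_true, hU, h0]
      refine ⟨?_, fun ⟨t, a, b⟩ => ?_⟩
      · rintro (⟨t, a, b⟩ | b)
        exacts [⟨t, by omega, b⟩, ⟨j, by omega, hz, b⟩]
      · by_cases d : t = j
        · exact Or.inr (d ▸ b.2)
        · exact Or.inl ⟨t, by omega, b⟩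

variable {K X : Type*} [Group K] [MulAction K X] {n : ℕ} {D : Dom X n} {N : List Net} {g : ℕ → K}

theorem nth_lmap {α β : Type} (f : α → β) (a : α) (b : β) {l : List α} {t : ℕ} (h : t < l.length) :
    nth b (lmap f l) t = f (nth a l t) := by
  simp [lmap_eq, nth_eq_getD, h]

theorem cell_iff (h : Reps D N g) {ws : List (List ℕ)} {Q : Subgroup K} (hQ : ∀ w ∈ ws, ev g w ∈ Q) {S : Set X}
    (hS : ∀ q ∈ Q, ∀ x ∈ S, q • x ∈ S) {v k : ℕ} {x0 x : X} (hv : D.set v = {x0}) (hx : x ∈ D.set (orb N ws k v)) :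
    x ∈ S ↔ x0 ∈ S := by
  obtain ⟨q, hq, y, hy, rfl⟩ := h.exists_of_mem_orb hQ hx
  rw [hv, Set.mem_singleton_iff] at hy
  subst hy
  exact ⟨fun e => inv_smul_smul q y ▸ hS _ (Q.inv_mem hq) _ e, hS q hq y⟩

open scoped _root_.Classical in
theorem search (h : Reps D N g) {ws : List (List ℕ)} {Q : Subgroup K} (hQ : ∀ w ∈ ws, ev g w ∈ Q) {S : Set X}
    (hS : ∀ q ∈ Q, ∀ x ∈ S, q • x ∈ S) {k : ℕ} {vs : List ℕ} {x0 : ℕ → X}
    (hv : ∀ t < vs.length, D.set (nth 0 vs t) = {x0 t}) (hO : S ⊆ D.set (lorL (lmap (orb N ws k) vs)))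
    {sz : List ℕ} {cs : List (List ℤ × ℤ)} {s : ℤ} {leaf : ℕ → Bool}
    (hc : ∀ j < vs.length, (nth ([], 0) cs j).1.length ≤ j + 1 ∧ (∑ t ∈ range vs.length, if x0 t ∈ S then
      (nth 0 sz t : ℕ) * nth 0 (nth ([], 0) cs j).1 t else 0) = (nth ([], 0) cs j).2 * s)
    (hd : dfs sz cs s leaf (lmap (orb N ws k) vs) 0 0 0 = true) : ∃ U, leaf U = true ∧ D.set U = S := by
  have hl : (lmap (orb N ws k) vs).length = vs.length := by rw [lmap_eq, List.length_map]
  obtain ⟨U, h1, h2⟩ := dfs_aux (z := fun t => decide (x0 t ∈ S)) (O := nth 0 (lmap (orb N ws k) vs)) (m := vs.length)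
    (by simpa using hc) (fun t _ => by rw [zero_add]) hl (by simp) (by simp) hd
  refine ⟨U, h1, Set.ext fun x => ⟨fun hx => ?_, fun hx => ?_⟩⟩
  · obtain ⟨i, hi, a, rfl⟩ := Dom.mem_set.1 hx
    obtain ⟨t, ht, b, c⟩ := (h2 i).1 a
    rw [nth_lmap _ 0 _ ht] at c
    exact (cell_iff h hQ hS (hv t ht) ((Dom.pt_mem_set hi).2 c)).2 (of_decide_eq_true b)
  · obtain ⟨i, hi, a, rfl⟩ := Dom.mem_set.1 (hO hx)
    obtain ⟨t, ht, c⟩ := testBit_lorL a
    rw [hl] at ht
    refine (Dom.pt_mem_set hi).2 ((h2 i).2 ⟨t, ht, decide_eq_true ?_, c⟩)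
    rw [nth_lmap _ 0 _ ht] at c
    exact (cell_iff h hQ hS (hv t ht) ((Dom.pt_mem_set hi).2 c)).1 hx

/-- all unions of the orbits of the points `Rs`, which cover `O`, pass the test -/
noncomputable def uniOK (N : List Net) (n : ℕ) (ws : List (List ℕ)) (k : ℕ) (Rs : List ℕ) (O : ℕ) (leaf : ℕ → Bool) :
    Bool :=
  Bool.rec false (forceL (lmap (orb N ws k) (lmap (Nat.shiftLeft (nat_lit 1)) Rs)) fun Os =>
    Bool.rec false (dfs [] [] (Int.ofNat (nat_lit 0)) leaf Os (nat_lit 0) (nat_lit 0) (nat_lit 0)) (Nat.beq (lorL Os) O))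
    (lall (fun r => Nat.ble (Nat.succ r) n) Rs)

theorem uni_sound (h : Reps D N g) {ws : List (List ℕ)} {Q : Subgroup K} (hQ : ∀ w ∈ ws, ev g w ∈ Q) {S : Set X}
    (hS : ∀ q ∈ Q, ∀ x ∈ S, q • x ∈ S) {k O : ℕ} {Rs : List ℕ} {leaf : ℕ → Bool} (hO : S ⊆ D.set O)
    (hc : uniOK N n ws k Rs O leaf = true) : ∃ U, leaf U = true ∧ D.set U = S := by
  rw [uniOK, brec_and, forceL_eq, brec_and, beq_iff, lall_iff] at hc
  refine search h hQ hS (x0 := fun t => D.pt (nth 0 Rs t)) (fun t ht => ?_) (hc.2.1 ▸ hO) (by simp) hc.2.2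
  rw [lmap_eq, List.length_map] at ht
  rw [nth_lmap _ 0 _ ht, D.set_shl (ble_iff.1 (hc.1 _ (nth_mem 0 ht)))]

/-- number of bits below `n` -/
noncomputable def popF (n v : ℕ) : ℕ := pop n (Nat.land v (full n))

theorem ncard_popF (D : Dom X n) (hn : n < 16777215) (v : ℕ) : (D.set v).ncard = popF n v := by
  rw [popF, pop_eq hn (fun x hx => by simp [testBit_full, hx]), D.ncard_set]
  congr 1; ext i; simp [mem_bits, testBit_full]; tauto

/-- the only invariant subset of `O` of size `s` -/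
noncomputable def detOK (N : List Net) (n : ℕ) (ws : List (List ℕ)) (k : ℕ) (Rs : List ℕ) (O s C : ℕ) : Bool :=
  uniOK N n ws k Rs O fun U => Bool.rec true (Nat.beq U C) (Nat.beq (popF n U) s)

theorem det_sound (h : Reps D N g) (hn : n < 16777215) {ws : List (List ℕ)} {Q : Subgroup K}
    (hQ : ∀ w ∈ ws, ev g w ∈ Q) {S : Set X} (hS : ∀ q ∈ Q, ∀ x ∈ S, q • x ∈ S) {k O s C : ℕ} {Rs : List ℕ}
    (hO : S ⊆ D.set O) (hs : S.ncard = s) (hc : detOK N n ws k Rs O s C = true) : S = D.set C := by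
  obtain ⟨U, h1, rfl⟩ := uni_sound h hQ hS hO hc
  rw [brec_imp, beq_iff, beq_iff, ← ncard_popF D hn] at h1
  rw [h1 hs]

/-- the test of a linear condition -/
noncomputable def conOK (B : List (List ℕ)) (sz : List ℕ) (m : ℕ) (c1 c2 : ℤ) (c : List ℤ × ℤ) : Bool :=
  force (full m) fun F => fzL (tabl (fun t => Int.sub (nth (Int.ofNat (nat_lit 0)) c.1 t) c.2) m) fun V =>
    fzL (tabl (fun s => dotZ V (nth [] B s) F (Int.ofNat (nat_lit 0))) m) fun W =>
      (fun q : List ℤ → List ℤ → ℤ => Bool.rec false (zeq (q W W) (Int.add (Int.mul c1 (q V V)) (Int.mul c2 (q V W))))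
        (zeq (dotZ V sz F (Int.ofNat (nat_lit 0))) (Int.ofNat (nat_lit 0))))
      fun A A' => dotZ (tabl (fun t => Int.mul (nth (Int.ofNat (nat_lit 0)) A t) (nth (Int.ofNat (nat_lit 0)) A' t)) m)
        sz F (Int.ofNat (nat_lit 0))

theorem con_sound {Ω : Type*} [Fintype Ω] {Γ : SimpleGraph Ω} {k l μ m : ℕ} {P : ℕ → Set Ω} (h : SR Γ k l μ)
    (hd : Disj P m) {sz : List ℕ} (hs : ∀ t < m, (P t).ncard = nth 0 sz t) {B : List (List ℕ)}
    (hB : ∀ s < m, ∀ x ∈ P s, ∀ t < m, {z | z ∈ P t ∧ Γ.Adj x z}.ncard = nth 0 (nth [] B s) t) {c : List ℤ × ℤ}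
    (hc : conOK B sz m (k - μ) (l - μ) c = true) {y : Ω} (hy : ∀ t < m, y ∉ P t) :
    ∑ t ∈ range m, ({z | z ∈ P t ∧ Γ.Adj y z}.ncard : ℤ) * (nth 0 c.1 t - c.2) = 0 := by
  simp only [conOK, force_eq, fzL_eq, brec_and, zeq_iff] at hc
  set V := tabl (fun t => Int.sub (nth (Int.ofNat (nat_lit 0)) c.1 t) c.2) m with hV
  set W := tabl (fun s => dotZ V (nth [] B s) (full m) (Int.ofNat (nat_lit 0))) m with hW
  have q : ∀ f : ℕ → ℤ, dotZ (tabl f m) sz (full m) (Int.ofNat (nat_lit 0)) = ∑ t ∈ range m, (nth 0 sz t : ℕ) * f t :=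
    fun f => (dotZ_full (length_tabl f m).le sz).trans (sum_congr rfl fun t ht => by rw [nth_tabl _ _ (mem_range.1 ht)])
  have h1 := hc.2
  rw [q, q, q] at h1
  refine Eq.trans ?_ (h.equit hd hs hB (V := nth 0 V) (W := nth 0 W) (fun s hs => (nth_tabl _ _ hs).trans
    (dotZ_full (length_tabl _ m).le _)) ((dotZ_full (length_tabl _ m).le _).symm.trans hc.1) h1 hy)
  exact sum_congr rfl fun t ht => by rw [hV, nth_tabl _ _ (mem_range.1 ht)]; rfl

end CF.Srg
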