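import Cfsg.Agent.Srg.Dfs
import Cfsg.Agent.Bt.Pc
import Cfsg.Agent.Bt.Salt

/-! Reconstruction of a strongly regular graph from the action of a point stabiliser. -/

set_option autoImplicit false

namespace CF.Srg

open CF.Comp Finset MulAction
open scoped Pointwise _root_.Classical

section
variable (K : Type*) {Ω X : Type*} [Group K] [MulAction K Ω] [MulAction K X]

/-- the two points have the same stabiliser -/
def Cor (b : Ω) (p : X) : Prop := ∀ k : K, k • b = b ↔ k • p = p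

/-- the map of orbits -/
noncomputable def bt (b : Ω) (p q : X) : Ω := if h : ∃ k : K, k • p = q then h.choose • b else b

/-- the neighbours of `y` in the orbit -/
def Nb (Γ : SimpleGraph Ω) (b : Ω) (p : X) (y : Ω) : Set X := {q | q ∈ orbit K p ∧ Γ.Adj y (bt K b p q)}

/-- the group keeps the graph -/
def Inv (Γ : SimpleGraph Ω) : Prop := ∀ (k : K) x y, Γ.Adj (k • x) (k • y) ↔ Γ.Adj x y
end

variable {K Ω X : Type*} [Group K] [MulAction K Ω] [MulAction K X] {Γ : SimpleGraph Ω} {b y : Ω} {p : X}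

theorem Cor.bt_smul (h : Cor K b p) (k : K) : bt K b p (k • p) = k • b := by
  have e : ∃ t : K, t • p = k • p := ⟨k, rfl⟩
  rw [bt, dif_pos e, ← inv_smul_eq_iff.1 ((mul_smul _ _ _).symm.trans
    ((h (k⁻¹ * e.choose)).2 (by rw [mul_smul, e.choose_spec, inv_smul_smul])))]

theorem Cor.bt_self (h : Cor K b p) : bt K b p p = b := by simpa using h.bt_smul 1

theorem Cor.inj (h : Cor K b p) : Set.InjOn (bt K b p) (orbit K p) := by
  rintro _ ⟨k, rfl⟩ _ ⟨t, rfl⟩ e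
  simp only [h.bt_smul] at e
  exact inv_smul_eq_iff.1 ((mul_smul _ _ _).symm.trans ((h (t⁻¹ * k)).1 (by rw [mul_smul, e, inv_smul_smul])))

theorem Cor.image (h : Cor K b p) : bt K b p '' orbit K p = orbit K b := by
  ext x
  exact ⟨by rintro ⟨_, ⟨k, rfl⟩, rfl⟩; exact ⟨k, (h.bt_smul k).symm⟩,
    by rintro ⟨k, rfl⟩; exact ⟨_, ⟨k, rfl⟩, h.bt_smul k⟩⟩

theorem Cor.smul_mem (h : Cor K b p) (hΓ : Inv K Γ) (k : K) {q : X} :
    k • q ∈ Nb K Γ b p (k • y) ↔ q ∈ Nb K Γ b p y := by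
  refine and_congr_left_iff.2 (fun _ => ?_) |>.trans (and_congr_right ?_)
  · rw [← orbit_eq_iff, orbit_smul, orbit_eq_iff]
  · rintro ⟨t, rfl⟩
    rw [← mul_smul, h.bt_smul, h.bt_smul, mul_smul, hΓ]

theorem Cor.nb_smul (h : Cor K b p) (hΓ : Inv K Γ) (k : K) : Nb K Γ b p (k • y) = k • Nb K Γ b p y := by
  ext q
  rw [Set.mem_smul_set_iff_inv_smul_mem, ← h.smul_mem hΓ k (q := k⁻¹ • q), smul_inv_smul]

theorem Cor.nb_inv (h : Cor K b p) (hΓ : Inv K Γ) : ∀ q ∈ stabilizer K y, ∀ x ∈ Nb K Γ b p y, q • x ∈ Nb K Γ b p y :=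
  fun q hq x hx => by have := (h.smul_mem hΓ q).2 hx; rwa [hq] at this

theorem Cor.ncard_nb (h : Cor K b p) {A : Set X} (hA : A ⊆ orbit K p) :
    {z | z ∈ bt K b p '' A ∧ Γ.Adj y z}.ncard = (Nb K Γ b p y ∩ A).ncard := by
  rw [← (h.inj.mono fun x hx => hA hx.2).ncard_image]
  congr 1; ext z
  exact ⟨by rintro ⟨⟨q, a, rfl⟩, c⟩; exact ⟨q, ⟨⟨hA a, c⟩, a⟩, rfl⟩, by rintro ⟨q, ⟨⟨-, c⟩, a⟩, rfl⟩; exact ⟨⟨q, a, rfl⟩, c⟩⟩

theorem Cor.ncard_nb' (h : Cor K b p) : (Nb K Γ b p y).ncard = {z | z ∈ orbit K b ∧ Γ.Adj y z}.ncard := by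
  rw [← h.image, h.ncard_nb subset_rfl, Set.inter_eq_left.2 fun x hx => hx.1]

theorem cor_of_le [Finite K] (h : ∀ k : K, k • b = b → k • p = p) (hl : (orbit K b).ncard ≤ (orbit K p).ncard) :
    Cor K b p := by
  have h1 := Subgroup.relIndex_mul_index (show stabilizer K b ≤ stabilizer K p from h)
  rw [← index_stabilizer, ← index_stabilizer, ← h1] at hl
  have h2 : (stabilizer K p).index ≠ 0 := Subgroup.index_ne_zero_of_finite
  have h3 : (stabilizer K b).relIndex (stabilizer K p) ≠ 0 := Subgroup.index_ne_zero_of_finite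
  have h4 : (stabilizer K b).relIndex (stabilizer K p) = 1 :=
    le_antisymm (Nat.le_of_mul_le_mul_right (by rwa [one_mul]) (Nat.pos_of_ne_zero h2)) (Nat.pos_of_ne_zero h3)
  exact fun k => ⟨h k, fun e => Subgroup.relIndex_eq_one.1 h4 e⟩

theorem fix_pt [Finite K] {q : ℕ} (hq : q.Prime) {Q : Subgroup K} (hQ : IsPGroup q Q) (b : Ω)
    (h : ¬ q ∣ (orbit K b).ncard) : ∃ x ∈ orbit K b, ∀ k ∈ Q, k • x = x := by
  haveI := Fact.mk hq
  obtain ⟨x, hx⟩ := hQ.nonempty_fixed_point_of_prime_not_dvd_card (orbit K b) h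
  exact ⟨x, x.2, fun k hk => congrArg Subtype.val (hx ⟨k, hk⟩)⟩

variable {n : ℕ} {D : Dom X n} {N : List Net} {g : ℕ → K}

/-- the orbit of `i` is `O` and has `s` points -/
noncomputable def orbOK (N : List Net) (n : ℕ) (gs : List (List ℕ)) (k i O s : ℕ) : Bool :=
  Bool.rec false (Bool.rec false (Nat.beq (popF n O) s) (Nat.beq (orb N gs k (Nat.shiftLeft (nat_lit 1) i)) O))
    (Nat.ble (Nat.succ i) n)

theorem cor_orb [Finite K] (h : Reps D N g) (hn : n < 16777215) {gs : List (List ℕ)} {k i O s : ℕ}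
    (hc : orbOK N n gs k i O s = true) (hs : (orbit K b).ncard = s) (hb : ∀ k : K, k • b = b → k • D.pt i = D.pt i) :
    Cor K b (D.pt i) ∧ orbit K (D.pt i) = D.set O := by
  rw [orbOK, brec_and, brec_and, beq_iff, beq_iff, ble_iff, ← ncard_popF D hn, ← hs] at hc
  have h1 : D.set O ⊆ orbit K (D.pt i) := fun x hx =>
    let ⟨k, _, e⟩ := h.exists_of_mem_orb_pt (H := ⊤) (fun _ _ => trivial) hc.1 (hc.2.1 ▸ hx); ⟨k, e⟩
  have h2 := cor_of_le hb (hc.2.2 ▸ Set.ncard_le_ncard h1 (Set.finite_range _))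
  exact ⟨h2, (Set.eq_of_subset_of_ncard_le h1 (by rw [hc.2.2, ← h2.image, h2.inj.ncard_image])
    (Set.finite_range _)).symm⟩

/-- the orbit of `i` under a group of order `c` that contains the words is on the list -/
noncomputable def subOK (N : List Net) (n : ℕ) (ws : List (List ℕ)) (k : ℕ) (Rs : List ℕ) (O i c : ℕ) (Ls : List ℕ) :
    Bool :=
  Bool.rec false (uniOK N n ws k Rs O fun U => Bool.rec true (Bool.rec true (lany (Nat.beq U) Ls)
    (Nat.beq (Nat.mod c (popF n U)) (nat_lit 0))) (tb U i)) (Nat.ble (Nat.succ i) n)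

theorem step1 [Finite K] (h : Reps D N g) (hn : n < 16777215) {ws : List (List ℕ)} (hb : ∀ x ∈ clo g ws, x • b = b)
    {k O i c s : ℕ} {Rs Ls : List ℕ} (hO : ∀ k : K, k • D.pt i ∈ D.set O) (hs : (orbit K b).ncard = s)
    (hK : Nat.card K = s * c) (hc : subOK N n ws k Rs O i c Ls = true) :
    ∃ U ∈ Ls, ∀ k : K, k • b = b → k • D.set U = D.set U := by
  rw [subOK, brec_and, ble_iff] at hc
  obtain ⟨U, h1, h2⟩ := uni_sound h (Q := stabilizer K b) (fun w hw => hb _ (ev_mem_clo g hw))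
    (S := orbit (stabilizer K b) (D.pt i)) (fun q hq x hx => (mem_orbit_of_mem_orbit (⟨q, hq⟩ : stabilizer K b) hx :))
    (by rintro _ ⟨k, rfl⟩; exact hO k) hc.2
  rw [brec_imp, brec_imp, tb_eq, ← Dom.pt_mem_set (D := D) hc.1, beq_iff, ← ncard_popF D hn, h2, lany_iff] at h1
  have h3 := (stabilizer K b).index_mul_card
  rw [index_stabilizer, hs, hK] at h3
  have h4 : s ≠ 0 := by rw [← hs, ← index_stabilizer]; exact Subgroup.index_ne_zero_of_finite
  obtain ⟨V, a, e⟩ := h1 (mem_orbit_self _) (Nat.mod_eq_zero_of_dvd (by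
    rw [← index_stabilizer, ← Nat.eq_of_mul_eq_mul_left (Nat.pos_of_ne_zero h4) h3]; exact Subgroup.index_dvd_card _))
  exact ⟨V, a, fun k hk => by rw [← beq_iff.1 e, h2]; exact smul_orbit (⟨k, hk⟩ : stabilizer K b) _⟩

theorem step2 (h : Reps D N g) (hn : n < 16777215) (hΓ : Inv K Γ) {i O : ℕ} (hC : Cor K b (D.pt i))
    (hO : orbit K (D.pt i) = D.set O) (hi : i < n) {ws : List (List ℕ)} (hw : lall (fixW N i) ws = true) {k s C : ℕ}
    {Rs : List ℕ} (hs : {z | z ∈ orbit K b ∧ Γ.Adj b z}.ncard = s) (hc : detOK N n ws k Rs O s C = true) :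
    Nb K Γ b (D.pt i) b = D.set C :=
  det_sound h hn (fun w a => (hC _).2 (h.fixW hi (lall_iff.1 hw w a))) (hC.nb_inv hΓ) (fun _ hx => hO ▸ hx.1)
    (hC.ncard_nb'.trans hs) hc

/-- the orbits of the images of `i` -/
noncomputable def cells (N : List Net) (ws : List (List ℕ)) (k : ℕ) (wl : List (List ℕ)) (i : ℕ) : List ℕ :=
  lmap (Bt.orbS N ws k) (lmap (fun w => imgW N (nat_lit 1) w (Nat.shiftLeft (nat_lit 1) i)) wl)

/-- the cells, their sizes and the quotient matrix -/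
noncomputable def cellOK (N : List Net) (n : ℕ) (ws : List (List ℕ)) (k : ℕ) (wl : List (List ℕ)) (i O C : ℕ)
    (sz : List ℕ) (B : List (List ℕ)) : Bool :=
  forceL (cells N ws k wl i) fun Os => Bool.rec false (allFrom (fun s => Bt.forceS (nth (nat_lit 0) Os s) fun o =>
    Bt.forceS (imgW N (nat_lit 1) (nth [] wl s) C) fun r => Bool.rec false (Bool.rec false
      (allFrom (fun t => Bt.forceS (nth (nat_lit 0) Os t) fun o' => Bool.rec false
        (Bool.rec (Nat.beq (Nat.land o o') (nat_lit 0)) true (Nat.beq s t))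
        (Nat.beq (popF n (Nat.land r o')) (nth (nat_lit 0) (nth [] B s) t))) (nat_lit 0) (llen wl))
      (Nat.beq (popF n o) (nth (nat_lit 0) sz s))) (closedW N ws o)) (nat_lit 0) (llen wl)) (Nat.beq (lorL Os) O)

/-- the linear conditions -/
noncomputable def consOK (B : List (List ℕ)) (sz : List ℕ) (m : ℕ) (c1 c2 : ℤ) (cs : List (List ℤ × ℤ)) (j : ℕ) : Bool :=
  Bool.rec false (conOK B sz m c1 c2 (nth ([], Int.ofNat (nat_lit 0)) cs j))
    (Nat.ble (llen (nth ([], Int.ofNat (nat_lit 0)) cs j).1) (Nat.succ j))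

theorem step3 [Fintype Ω] {k l μ : ℕ} (hΓ' : SR Γ k l μ) (h : Reps D N g) (hn : n < 16777215) (hΓ : Inv K Γ)
    {i O C : ℕ} (hC : Cor K b (D.pt i)) (hO : orbit K (D.pt i) = D.set O) (hi : i < n)
    (hT : Nb K Γ b (D.pt i) b = D.set C) {ws : List (List ℕ)} (hy : ∀ x ∈ clo g ws, x • y = y) (hy' : y ∉ orbit K b)
    {s : ℕ} (hs : {z | z ∈ orbit K b ∧ Γ.Adj y z}.ncard = s) {q : ℕ} {wl : List (List ℕ)} {sz : List ℕ}
    {B : List (List ℕ)} {cs : List (List ℤ × ℤ)} {leaf : ℕ → Bool} (h1 : cellOK N n ws q wl i O C sz B = true)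
    {m : ℕ} (hm : wl.length = m) {c1 c2 : ℤ} (e1 : c1 = k - μ) (e2 : c2 = l - μ)
    (h2 : ∀ j < m, consOK B sz m c1 c2 cs j = true)
    (h3 : forceL (cells N ws q wl i) (fun Os => dfs sz cs (Int.ofNat s) leaf Os 0 0 0) = true) :
    ∃ U, leaf U = true ∧ D.set U = Nb K Γ b (D.pt i) y := by
  subst e1 e2 hm
  simp only [cellOK, forceL_eq, brec_and, allFrom_zero, Bt.forceS_eq, beq_iff, brec_or, llen_eq, ← ncard_popF D hn] at h1 h3
  have hv : ∀ t < wl.length, D.set (nth 0 (lmap (fun w => imgW N (nat_lit 1) w (Nat.shiftLeft (nat_lit 1) i)) wl) t) =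
      {ev g (nth [] wl t) • D.pt i} := fun t ht => by
    rw [nth_lmap _ [] _ ht, ← h.smul_set, D.set_shl hi, Set.smul_set_singleton]
  have hl : (lmap (fun w => imgW N (nat_lit 1) w (Nat.shiftLeft (nat_lit 1) i)) wl).length = wl.length := by
    rw [lmap_eq, List.length_map]
  set A : ℕ → Set X := fun t => D.set (nth 0 (cells N ws q wl i) t) with hA
  have a1 : ∀ t < wl.length, ∀ x ∈ A t, ∃ u ∈ clo g ws, (u * ev g (nth [] wl t)) • D.pt i = x := fun t ht x hx => by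
    simp only [hA, cells, Bt.orbS_eq, nth_lmap _ 0 _ (hl ▸ ht)] at hx
    obtain ⟨u, hu, z, hz, rfl⟩ := h.exists_of_mem_orb (fun _ => ev_mem_clo g) hx
    rw [hv t ht, Set.mem_singleton_iff] at hz
    exact ⟨u, hu, by rw [mul_smul, hz]⟩
  have a2 : ∀ t < wl.length, A t ⊆ orbit K (D.pt i) := fun t ht x hx => let ⟨_, _, e⟩ := a1 t ht x hx; ⟨_, e⟩
  have hd : Disj (fun t => bt K b (D.pt i) '' A t) wl.length := by
    rintro s hs t ht _ ⟨x, hx, rfl⟩ ⟨x', hx', e⟩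
    rw [hC.inj (a2 t ht hx') (a2 s hs hx) e] at hx'
    refine ((h1.2 s hs).2.2 t ht).2.resolve_right fun c => ?_
    have : x ∈ D.set (Nat.land (nth 0 (cells N ws q wl i) s) (nth 0 (cells N ws q wl i) t)) :=
      D.set_land _ _ ▸ ⟨hx, hx'⟩
    rw [show Nat.land _ _ = 0 from c, Dom.mem_set] at this
    simp at this
  have a3 : ∀ t < wl.length, ({z | z ∈ bt K b (D.pt i) '' A t ∧ Γ.Adj y z}.ncard : ℤ) =
      if ev g (nth [] wl t) • D.pt i ∈ Nb K Γ b (D.pt i) y then ((nth 0 sz t : ℕ) : ℤ) else 0 := fun t ht => by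
    have := fun x (hx : x ∈ A t) => cell_iff h (fun _ => ev_mem_clo g) (fun u hu => hC.nb_inv hΓ u (hy u hu)) (hv t ht)
      (by simpa only [hA, cells, Bt.orbS_eq, nth_lmap _ 0 _ (hl ▸ ht)] using hx)
    rw [hC.ncard_nb (a2 t ht)]
    split_ifs with c
    · rw [Set.inter_eq_right.2 fun x hx => (this x hx).2 c]; exact congrArg _ (h1.2 t ht).2.1
    · rw [Set.eq_empty_of_forall_notMem (s := _ ∩ A t) fun x hx => c ((this x hx.2).1 hx.1)]; simp
  refine search h (fun _ => ev_mem_clo g) (fun u hu => hC.nb_inv hΓ u (hy u hu)) (x0 := fun t => ev g (nth [] wl t) • D.pt i)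
    (hl ▸ hv) (fun x hx => Bt.orbS_eq ▸ (show lorL (lmap (Bt.orbS N ws q) _) = O from h1.1) ▸ hO ▸ hx.1)
    (fun j hj => ?_) (by rwa [cells, Bt.orbS_eq] at h3)
  rw [hl] at hj ⊢
  have c := h2 j hj
  rw [consOK, brec_and, ble_iff, llen_eq] at c
  refine ⟨c.1, ?_⟩
  have c2 := con_sound hΓ' hd (fun t ht => ((hC.inj.mono (a2 t ht)).ncard_image).trans (h1.2 t ht).2.1) (by
    rintro s hs _ ⟨x, hx, rfl⟩ t ht
    obtain ⟨u, hu, rfl⟩ := a1 s hs x hx
    rw [hC.ncard_nb (a2 t ht), hC.bt_smul, hC.nb_smul hΓ, hT, mul_smul, h.smul_set,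
      ← show u • A t = A t from h.closedW (h1.2 t ht).1 hu, ← Set.smul_set_inter, Set.ncard_smul_set, ← D.set_land]
    exact ((h1.2 s hs).2.2 t ht).1) c.2 (y := y) fun t ht e => hy' (hC.image ▸ Set.image_mono (a2 t ht) e)
  have c3 := hd.ncard (p := fun z => z ∈ orbit K b ∧ Γ.Adj y z) (by
    rintro x ⟨hx, -⟩
    obtain ⟨z, hz, rfl⟩ := hC.image.ge hx
    obtain ⟨t, ht, a, rfl⟩ := Dom.mem_set.1 (h1.1 ▸ hO ▸ hz : z ∈ D.set (lorL (cells N ws q wl i)))
    obtain ⟨u, hu, a⟩ := testBit_lorL a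
    exact ⟨u, by simpa [cells, lmap_eq] using hu, _, (Dom.pt_mem_set ht).2 a, rfl⟩)
  have a4 : ∀ t ∈ range wl.length, {z | z ∈ bt K b (D.pt i) '' A t ∧ z ∈ orbit K b ∧ Γ.Adj y z} =
      {z | z ∈ bt K b (D.pt i) '' A t ∧ Γ.Adj y z} := fun t ht => Set.ext fun z => and_congr_right fun e =>
    and_iff_right (hC.image ▸ Set.image_mono (a2 t (mem_range.1 ht)) e)
  rw [hs, sum_congr rfl fun t ht => by rw [a4 t ht]] at c3
  simp only [mul_sub] at c2
  rw [sum_sub_distrib, ← sum_mul, ← c3, sub_eq_zero, sum_congr rfl fun t ht => by rw [a3 t (mem_range.1 ht)]] at c2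
  simp only [ite_mul, zero_mul] at c2
  exact c2.trans (mul_comm _ _)

end CF.Srg
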