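import Cfsg.Agent.Srg.Basic

/-! Equitable families of cells in a strongly regular graph. -/

set_option autoImplicit false

namespace CF.Srg

open Finset
open scoped _root_.Classical

variable {Ω : Type*} [Fintype Ω] {Γ : SimpleGraph Ω} {k l μ m : ℕ} {P : ℕ → Set Ω}

/-- the cells are disjoint -/
def Disj {X : Type*} (P : ℕ → Set X) (m : ℕ) : Prop := ∀ s < m, ∀ t < m, ∀ x, x ∈ P s → x ∈ P t → s = t

omit [Fintype Ω] in
theorem Disj.ite (hd : Disj P m) (F : ℕ → ℤ) {s : ℕ} (hs : s < m) {x : Ω} (hx : x ∈ P s) :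
    (∑ t ∈ range m, if x ∈ P t then F t else 0) = F s := by
  rw [sum_eq_single s (fun t ht c => if_neg fun e => c (hd t (mem_range.1 ht) s hs x e hx))
    (fun c => absurd (mem_range.2 hs) c), if_pos hx]

theorem sum_cells (F : ℕ → ℤ) (p : Ω → Prop) : (∑ x with p x, ∑ t ∈ range m, if x ∈ P t then F t else 0) =
    ∑ t ∈ range m, ({x | x ∈ P t ∧ p x}.ncard : ℤ) * F t := by
  rw [sum_comm]
  refine sum_congr rfl fun t _ => ?_
  rw [← sum_filter, sum_const, nsmul_eq_mul, ncard_eq, filter_filter]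
  simp only [and_comm]

theorem Disj.sum (hd : Disj P m) {f : Ω → ℤ} {F : ℕ → ℤ} (h1 : ∀ s < m, ∀ x ∈ P s, f x = F s)
    (h2 : ∀ x, (∀ s < m, x ∉ P s) → f x = 0) : ∑ x, f x = ∑ t ∈ range m, ((P t).ncard : ℤ) * F t := by
  have := sum_cells (P := P) (m := m) F fun _ => True
  simp only [filter_true, and_true, Set.ofPred_mem_eq] at this
  rw [← this]
  refine sum_congr rfl fun x _ => ?_
  by_cases c : ∃ s < m, x ∈ P s
  · obtain ⟨s, hs, hx⟩ := c
    rw [hd.ite F hs hx, h1 s hs x hx]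
  · push Not at c
    rw [h2 x c, sum_eq_zero fun t ht => if_neg (c t (mem_range.1 ht))]

theorem Disj.ncard (hd : Disj P m) {p : Ω → Prop} (h : ∀ x, p x → ∃ s < m, x ∈ P s) :
    ({x | p x}.ncard : ℤ) = ∑ t ∈ range m, ({x | x ∈ P t ∧ p x}.ncard : ℤ) := by
  have := sum_cells (P := P) (m := m) (fun _ => 1) p
  simp only [mul_one] at this
  rw [← this, ncard_eq, card_eq_sum_ones, Nat.cast_sum]
  refine sum_congr rfl fun x hx => ?_
  obtain ⟨s, hs, hx⟩ := h x (mem_filter.1 hx).2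
  rw [hd.ite (fun _ => 1) hs hx, Nat.cast_one]

theorem SR.equit (h : SR Γ k l μ) (hd : Disj P m) {sz : ℕ → ℕ} (hs : ∀ t < m, (P t).ncard = sz t) {B : ℕ → ℕ → ℕ}
    (hB : ∀ s < m, ∀ x ∈ P s, ∀ t < m, {z | z ∈ P t ∧ Γ.Adj x z}.ncard = B s t) {V W : ℕ → ℤ}
    (hW : ∀ s < m, W s = ∑ t ∈ range m, B s t * V t) (h0 : ∑ t ∈ range m, sz t * V t = 0)
    (h1 : ∑ s ∈ range m, sz s * (W s * W s) = (k - μ) * ∑ s ∈ range m, sz s * (V s * V s) +
      (l - μ) * ∑ s ∈ range m, sz s * (V s * W s)) {y : Ω} (hy : ∀ t < m, y ∉ P t) :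
    ∑ t ∈ range m, ({z | z ∈ P t ∧ Γ.Adj y z}.ncard : ℤ) * V t = 0 := by
  let v : Ω → ℤ := fun x => ∑ t ∈ range m, if x ∈ P t then V t else 0
  have a1 : ∀ x, av Γ v x = ∑ t ∈ range m, ({z | z ∈ P t ∧ Γ.Adj x z}.ncard : ℤ) * V t := fun x => sum_cells V _
  have a2 : ∀ s < m, ∀ x ∈ P s, v x = V s := fun s hs x hx => hd.ite V hs hx
  have a3 : ∀ s < m, ∀ x ∈ P s, av Γ v x = W s := fun s hs x hx => by
    rw [a1, hW s hs]; exact sum_congr rfl fun t ht => by rw [hB s hs x hx t (mem_range.1 ht)]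
  have a4 : ∀ x, (∀ s < m, x ∉ P s) → v x = 0 := fun x c => sum_eq_zero fun t ht => if_neg (c t (mem_range.1 ht))
  have a5 : ∀ F : ℕ → ℤ, ∑ t ∈ range m, ((P t).ncard : ℤ) * F t = ∑ t ∈ range m, sz t * F t := fun F =>
    sum_congr rfl fun t ht => by rw [hs t (mem_range.1 ht)]
  rw [← a1]
  refine h.eig (S := {x | ∃ s < m, x ∈ P s}) ((hd.sum a2 a4).trans ((a5 V).trans h0)) ?_ (by simpa using hy)
  rw [sum_filter, hd.sum (F := fun s => W s * W s) (fun s hs x hx => by rw [if_pos ⟨s, hs, hx⟩, a3 s hs x hx, sq])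
    (fun x c => if_neg fun ⟨s, hs, hx⟩ => c s hs hx),
    hd.sum (f := fun x => v x ^ 2) (F := fun s => V s * V s) (fun s hs x hx => by rw [a2 s hs x hx, sq])
      (fun x c => by rw [a4 x c]; rfl),
    hd.sum (f := fun x => v x * av Γ v x) (F := fun s => V s * W s) (fun s hs x hx => by rw [a2 s hs x hx, a3 s hs x hx])
      (fun x c => by rw [a4 x c, zero_mul]), a5, a5, a5, h1]

theorem SR.far (h : SR Γ k l μ) (a y : Ω) : {z | (z ≠ a ∧ ¬ Γ.Adj a z) ∧ Γ.Adj y z}.ncard +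
    {z | Γ.Adj a z ∧ Γ.Adj y z}.ncard + (if Γ.Adj a y then 1 else 0) = k := by
  rw [← h.deg' y, ncard_eq, ncard_eq, ← card_filter_add_card_filter_not (s := univ.filter (Γ.Adj y)) (Γ.Adj a),
    ← card_filter_add_card_filter_not (s := (univ.filter (Γ.Adj y)).filter fun z => ¬ Γ.Adj a z) (· = a),
    add_right_comm, add_comm]
  simp only [filter_filter]
  congr 1
  · simp only [and_comm]
  · rw [add_comm]
    congr 1
    · split_ifs with c
      · rw [eq_comm, card_eq_one]; exact ⟨a, by ext z; simp; rintro rfl; simp [c.symm]⟩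
      · rw [eq_comm, card_eq_zero, filter_eq_empty_iff]; rintro z - ⟨e, rfl⟩; exact c e.1.symm
    · congr 1; ext; simp; tauto

end CF.Srg
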