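import Cfsg.Agent.Srg.HS

/-! Eigenvectors of strongly regular graphs; ovoids of the generalized quadrangle of order two. -/

set_option autoImplicit false

namespace CF.Srg

open Finset
open scoped _root_.Classical

variable {Ω : Type*} [Fintype Ω] {Γ : SimpleGraph Ω} {k l μ : ℕ}

theorem av_comm (v w : Ω → ℤ) : ∑ x, av Γ v x * w x = ∑ x, v x * av Γ w x := by
  simp only [av, sum_filter, sum_mul, mul_sum]
  rw [sum_comm]
  refine sum_congr rfl fun x _ => sum_congr rfl fun y _ => ?_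
  simp only [Γ.adj_comm y x]; split_ifs <;> simp

theorem SR.av_av (h : SR Γ k l μ) (v : Ω → ℤ) (x : Ω) :
    av Γ (av Γ v) x = (k - μ) * v x + (l - μ) * av Γ v x + μ * ∑ y, v y := by
  have e : ∀ z, (∑ y, if Γ.Adj x y ∧ Γ.Adj z y then v z else 0) = (if x = z then (k - μ : ℤ) * v z else 0) +
      (if Γ.Adj x z then (l - μ : ℤ) * v z else 0) + μ * v z := fun z => by
    rw [← sum_filter, sum_const, nsmul_eq_mul, h.cn]
    split_ifs <;> ring
  calc _ = ∑ y, ∑ z, if Γ.Adj x y ∧ Γ.Adj z y then v z else 0 := by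
        rw [av, sum_filter]
        refine sum_congr rfl fun y _ => ?_
        by_cases a : Γ.Adj x y <;> simp [a, av, sum_filter, Γ.adj_comm y]
    _ = _ := by
        rw [sum_comm]
        simp only [e, sum_add_distrib, sum_ite_eq, mem_univ, if_true, av, sum_filter, mul_sum, mul_ite, mul_zero]

/-- a combination of a vector, its image and a constant -/
noncomputable def mv (Γ : SimpleGraph Ω) (α β γ : ℤ) (v : Ω → ℤ) (x : Ω) : ℤ := α * v x - β * av Γ v x + γ

theorem SR.av_mv (h : SR Γ k l μ) (α β γ : ℤ) (v : Ω → ℤ) (x : Ω) : av Γ (mv Γ α β γ v) x =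
    α * av Γ v x - β * ((k - μ) * v x + (l - μ) * av Γ v x + μ * ∑ y, v y) + γ * k := by
  rw [← h.av_av]
  simp only [av, mv, sum_add_distrib, sum_sub_distrib, ← mul_sum, sum_const, h.deg', nsmul_eq_mul, mul_comm γ]

theorem SR.eig_sum (h : SR Γ k l μ) {W : Ω → ℤ} {θ : ℤ} (hW : ∀ x, av Γ W x = θ * W x) (hθ : θ ≠ k) :
    ∑ x, W x = 0 := by
  have := h.sum_av W
  simp only [hW, ← mul_sum] at this
  exact (mul_eq_mul_right_iff.1 this).resolve_left hθ

theorem SR.eig_dot (h : SR Γ k l μ) {W : Ω → ℤ} {θ : ℤ} (hW : ∀ x, av Γ W x = θ * W x) (hθ : θ ≠ k)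
    (α β γ : ℤ) (v : Ω → ℤ) : ∑ x, mv Γ α β γ v x * W x = (α - β * θ) * ∑ x, v x * W x := by
  simp only [mv, add_mul, sub_mul, mul_assoc, sum_add_distrib, sum_sub_distrib, ← mul_sum, av_comm, hW, h.eig_sum hW hθ,
    mul_left_comm _ θ]
  ring

/-- no two members are adjacent -/
def Coc (Γ : SimpleGraph Ω) (S : Finset Ω) : Prop := ∀ u ∈ S, ∀ v ∈ S, ¬ Γ.Adj u v

namespace GQ

variable (h : SR Γ 6 1 3) (hn : Fintype.card Ω = 15) {c d : Ω} (e : c ≠ d) (a : ¬ Γ.Adj c d)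
include h

theorem eig (v : Ω → ℤ) (x : Ω) : av Γ (mv Γ 3 3 (∑ y, v y) v) x = -3 * mv Γ 3 3 (∑ y, v y) v x := by
  rw [h.av_mv, mv]; push_cast; ring

theorem lam {x y z w : Ω} (a : Γ.Adj x y) (b : Γ.Adj x z ∧ Γ.Adj y z) (c : Γ.Adj x w ∧ Γ.Adj y w) : z = w :=
  card_le_one.1 (h.adj' a).le z (mem_filter.2 ⟨mem_univ _, b⟩) w (mem_filter.2 ⟨mem_univ _, c⟩)

omit h in
/-- the vertices not joined to `c` or `d` -/
noncomputable def A (Γ : SimpleGraph Ω) (c d : Ω) : Finset Ω := {y | y ≠ c ∧ y ≠ d ∧ ¬ Γ.Adj c y ∧ ¬ Γ.Adj d y}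

theorem deg_A {x : Ω} (hx : x ∈ A Γ c d) :
    #{y | Γ.Adj x y ∧ y ∈ A Γ c d} = #{y | Γ.Adj x y ∧ Γ.Adj c y ∧ Γ.Adj d y} := by
  simp only [A, mem_filter, mem_univ, true_and] at hx
  have c1 := card_union_add_card_inter (univ.filter fun y => Γ.Adj x y ∧ Γ.Adj c y)
    (univ.filter fun y => Γ.Adj x y ∧ Γ.Adj d y)
  have c2 := card_filter_add_card_filter_not (s := univ.filter fun y => Γ.Adj x y) (· ∈ A Γ c d)
  rw [h.nadj' hx.1 fun t => hx.2.2.1 t.symm, h.nadj' hx.2.1 fun t => hx.2.2.2 t.symm, ← filter_and, ← filter_or] at c1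
  rw [h.deg', filter_filter, filter_filter] at c2
  have e1 : (univ.filter fun y => Γ.Adj x y ∧ y ∉ A Γ c d) =
      univ.filter fun y => Γ.Adj x y ∧ Γ.Adj c y ∨ Γ.Adj x y ∧ Γ.Adj d y := filter_congr fun y _ => by
    rw [← and_or_left]
    refine and_congr_right fun t => ?_
    have e2 : y ≠ c := fun u => hx.2.2.1 (u ▸ t.symm)
    have e3 : y ≠ d := fun u => hx.2.2.2 (u ▸ t.symm)
    simp [A, e2, e3, or_iff_not_imp_left]
  simp only [← and_and_left] at c1
  rw [e1] at c2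
  omega

include hn e a

theorem card_A : #(A Γ c d) = 4 := by
  have c1 := card_union_add_card_inter (univ.filter fun y => Γ.Adj c y) (univ.filter fun y => Γ.Adj d y)
  rw [h.deg', h.deg', ← filter_and, h.nadj' e a] at c1
  have : A Γ c d = (insert c (insert d ((univ.filter fun y => Γ.Adj c y) ∪ univ.filter fun y => Γ.Adj d y)))ᶜ := by
    ext; simp [A]
  rw [this, card_compl, card_insert_of_notMem (by simp [e, Γ.adj_comm d, a]), card_insert_of_notMem (by simp [a]), hn]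
  omega

theorem star : ∃ s ∈ A Γ c d, ∀ x ∈ A Γ c d, x ≠ s → Γ.Adj x s ∧ #{y | Γ.Adj x y ∧ y ∈ A Γ c d} = 1 := by
  let X : Finset Ω := insert c (insert d (univ.filter fun y => Γ.Adj c y ∧ Γ.Adj d y))
  have x1 : c ∉ insert d (univ.filter fun y => Γ.Adj c y ∧ Γ.Adj d y) := by simp [e]
  have x2 : d ∉ univ.filter fun y => Γ.Adj c y ∧ Γ.Adj d y := by simp
  let χ : Ω → ℤ := fun y => if y ∈ X then 1 else 0
  have s1 : ∑ y, χ y = 5 := by
    rw [sum_boole, filter_mem_eq_inter, univ_inter, card_insert_of_notMem x1, card_insert_of_notMem x2, h.nadj' e a]; rfl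
  have eg := eig h χ
  rw [s1] at eg
  set g := mv Γ 3 3 5 χ with hg
  have g0 : ∀ y, g y = 3 * χ y - 3 * #{z | Γ.Adj y z ∧ z ∈ X} + 5 := fun y => by rw [hg, mv, av_ind]
  have gc : g c = -1 := by
    rw [g0, show (univ.filter fun z => Γ.Adj c z ∧ z ∈ X) = univ.filter fun y => Γ.Adj c y ∧ Γ.Adj d y from
      filter_congr fun z _ => and_congr_right fun t => by
        simp [X, t, t.ne', show z ≠ d from fun u => a (u ▸ t)], h.nadj' e a]
    simp [χ, X]
  have gd : g d = -1 := by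
    rw [g0, show (univ.filter fun z => Γ.Adj d z ∧ z ∈ X) = univ.filter fun y => Γ.Adj c y ∧ Γ.Adj d y from
      filter_congr fun z _ => and_comm.trans (and_congr_left fun t => by
        simp [X, t, t.ne', show z ≠ c from fun u => a (u ▸ t.symm)]), h.nadj' e a]
    simp [χ, X]
  have gr : ∀ r ∈ univ.filter fun y => Γ.Adj c y ∧ Γ.Adj d y, χ r * g r = 2 := fun r hr => by
    have t := (mem_filter.1 hr).2
    rw [g0, show (univ.filter fun z => Γ.Adj r z ∧ z ∈ X) = {c, d} from ext fun z => by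
      simp only [X, mem_filter, mem_univ, true_and, mem_insert, mem_singleton]
      exact ⟨fun ⟨u, v⟩ => v.imp_right fun v => v.resolve_right fun w =>
          e (lam h u ⟨t.1.symm, w.1.symm⟩ ⟨t.2.symm, w.2.symm⟩),
        by rintro (rfl | rfl); exacts [⟨t.1.symm, .inl rfl⟩, ⟨t.2.symm, .inr (.inl rfl)⟩]⟩, card_pair e]
    simp [χ, X, t]
  have s2 : ∑ y, g y * g y = 48 := by
    rw [hg, h.eig_dot eg (by decide), ← sum_subset (subset_univ X) fun y _ t => by simp [χ, t], sum_insert x1,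
      sum_insert x2, sum_congr rfl gr, gc, gd, sum_const, h.nadj' e a]
    simp [χ, X]
  obtain ⟨s, hs⟩ : ∃ s, (g s + 1) * (g s - 2) ≠ 0 := by
    by_contra! t
    have : ∑ y, (g y + 1) * (g y - 2) = ∑ y, g y * g y - ∑ y, g y - ∑ _y : Ω, 2 := by
      rw [← sum_sub_distrib, ← sum_sub_distrib]; exact sum_congr rfl fun y _ => by ring
    simp [t, s2, h.eig_sum eg, hn] at this
  let δ : Ω → ℤ := fun y => if y = s then 1 else 0
  have eM := eig h δ
  rw [show ∑ y, δ y = 1 by simp [δ]] at eM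
  set M := mv Γ 3 3 1 δ with hM
  have M0 : ∀ y, M y = (if y = s then 3 else 0) - (if Γ.Adj y s then 3 else 0) + 1 := fun y => by
    simp only [hM, mv, av, δ, sum_ite_eq', mem_filter, mem_univ, true_and]; split_ifs <;> rfl
  have s3 : ∑ y, M y * g y = 12 * g s := by rw [hM, h.eig_dot eg (by decide)]; simp [δ]
  have s4 : ∑ y, M y * M y = 48 := by
    nth_rewrite 1 [hM]; rw [h.eig_dot eM (by decide)]; simp [δ, M0]
  have s5 : ∀ ε : ℤ, ∑ y, (g y + ε * M y) ^ 2 = 48 + 24 * ε * g s + ε ^ 2 * 48 := fun ε => by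
    have : ∀ y, (g y + ε * M y) ^ 2 = g y * g y + 2 * ε * (M y * g y) + ε ^ 2 * (M y * M y) := fun y => by ring
    simp only [this, sum_add_distrib, ← mul_sum, s2, s3, s4]; ring
  have s6 := fun ε => (s5 ε ▸ sum_nonneg fun y _ => sq_nonneg _ : (0 : ℤ) ≤ 48 + 24 * ε * g s + ε ^ 2 * 48)
  have s7 : g s = -4 := by
    have := s6 1
    have := s6 (-1)
    have := g0 s
    rw [mul_ne_zero_iff] at hs
    omega
  have s8 : ∀ y, g y + 1 * M y = 0 := fun y => pow_eq_zero_iff two_ne_zero |>.1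
    ((sum_eq_zero_iff_of_nonneg fun _ _ => sq_nonneg _).1 ((s5 1).trans (by rw [s7]; rfl)) y (mem_univ y))
  have gA : ∀ x ∈ A Γ c d, g x = 5 - 3 * #{y | Γ.Adj x y ∧ y ∈ A Γ c d} := fun x hx => by
    rw [deg_A h hx, g0]
    simp only [A, mem_filter, mem_univ, true_and] at hx
    rw [show (univ.filter fun z => Γ.Adj x z ∧ z ∈ X) = univ.filter fun y => Γ.Adj x y ∧ Γ.Adj c y ∧ Γ.Adj d y from
      filter_congr fun z _ => and_congr_right fun t => by
        simp [X, show z ≠ c from fun u => hx.2.2.1 (u ▸ t.symm), show z ≠ d from fun u => hx.2.2.2 (u ▸ t.symm)]]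
    simp [χ, X, hx]; ring
  have sA : s ∈ A Γ c d := by
    have c1 := s8 c
    have c2 := s8 d
    rw [gc, M0] at c1
    rw [gd, M0] at c2
    simp only [A, mem_filter, mem_univ, true_and, @ne_comm _ s]
    exact ⟨fun t => by simp [t] at c1, fun t => by simp [t] at c2, fun t => by simp [t, t.ne] at c1,
      fun t => by simp [t, t.ne] at c2⟩
  have s9 : (univ.filter fun y => Γ.Adj s y ∧ y ∈ A Γ c d) = (A Γ c d).erase s :=
    eq_of_subset_of_card_le (fun y t => mem_erase.2 ⟨(mem_filter.1 t).2.1.ne', (mem_filter.1 t).2.2⟩) (by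
      have := gA s sA
      rw [card_erase_of_mem sA, card_A h hn e a]; omega)
  refine ⟨s, sA, fun x hx t => ?_⟩
  have c1 : Γ.Adj x s := (mem_filter.1 (s9.ge (mem_erase.2 ⟨t, hx⟩))).2.1.symm
  have c2 := s8 x
  rw [gA x hx, M0, if_neg t, if_pos c1] at c2
  exact ⟨c1, by omega⟩

theorem ovoid : ∃! K : Finset Ω, Coc Γ K ∧ #K = 5 ∧ c ∈ K ∧ d ∈ K := by
  obtain ⟨s, hs, h1⟩ := star h hn e a
  have m : ∀ x ∈ A Γ c d, x ≠ c ∧ x ≠ d ∧ ¬ Γ.Adj c x ∧ ¬ Γ.Adj d x := fun x hx => (mem_filter.1 hx).2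
  have h2 : #(insert c (insert d ((A Γ c d).erase s))) = 5 := by
    rw [card_insert_of_notMem (by simp [e, A]), card_insert_of_notMem (by simp [A]), card_erase_of_mem hs,
      card_A h hn e a]
  refine ⟨_, ⟨fun u hu v hv t => ?_, h2, by simp, by simp⟩, fun K ⟨k1, k2, k3, k4⟩ => eq_of_subset_of_card_le
    (fun u hu => ?_) (by rw [h2, k2])⟩
  · simp only [mem_insert, mem_erase] at hu hv
    rcases hu with rfl | rfl | hu <;> rcases hv with rfl | rfl | hv
    exacts [t.ne rfl, a t, (m v hv.2).2.2.1 t, a t.symm, t.ne rfl, (m v hv.2).2.2.2 t, (m u hu.2).2.2.1 t.symm,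
      (m u hu.2).2.2.2 t.symm, hv.1 (card_le_one.1 (h1 u hu.2 hu.1).2.le v (mem_filter.2 ⟨mem_univ _, t, hv.2⟩) s
        (mem_filter.2 ⟨mem_univ _, (h1 u hu.2 hu.1).1, hs⟩))]
  · have h3 : ∀ y ∈ K, y = c ∨ y = d ∨ y ∈ A Γ c d := fun y t => or_iff_not_imp_left.2 fun u =>
      or_iff_not_imp_left.2 fun v => mem_filter.2 ⟨mem_univ _, u, v, k1 c k3 y t, k1 d k4 y t⟩
    simp only [mem_insert, mem_erase]
    refine (h3 u hu).imp_right (Or.imp_right fun t => ⟨?_, t⟩)
    rintro rfl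
    obtain ⟨y, t1, t2⟩ := exists_mem_notMem_of_card_lt_card (s := {c, d, u}) (t := K) (card_le_three.trans_lt (by omega))
    simp only [mem_insert, mem_singleton, not_or] at t2
    exact k1 y t1 u hu (h1 y (((h3 y t1).resolve_left t2.1).resolve_left t2.2.1) t2.2.2).1

end GQ

end CF.Srg
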