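import Cfsg.Agent.Srg.Asm
import Cfsg.Agent.Bt.Res

/-! Subgroups of a given order: conjugation, Sylow counts and a search through invariant sets. -/

set_option autoImplicit false

namespace CF.Srg

open CF.Comp CF.Bt Finset MulAction Subgroup
open scoped Pointwise

variable {G X : Type*} [Group G] [MulAction G X] {n : ℕ} {D : Dom X n} {N : List Net} {g : ℕ → G}
  {L H Q : Subgroup G}

/-- the walk through the images of a set meets `s` different ones -/
noncomputable def wk (N : List Net) (n M : ℕ) (ls : List (List ℕ)) (F : ℕ) : ℕ → ℕ → ℕ → Bool :=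
  Nat.rec (motive := fun _ => ℕ → ℕ → ℕ → Bool) (fun _ _ s => Nat.beq s (nat_lit 0)) (fun j ih U S s =>
    Nat.rec (motive := fun _ => Bool) true (fun s' _ => force (Nat.mod (Nat.land U (full n)) M) fun c =>
      forceS (imgW N (nat_lit 1) (nth [] ls (Nat.mod (Nat.mod (Nat.mul j (Nat.add c j)) (nat_lit 1009)) (llen ls))) U)
        fun U' => Bool.rec (forceS (Nat.lor S (Nat.shiftLeft (nat_lit 1) c)) fun S' => ih U' S' s') (ih U' S s)
          (tb S c)) s) F

theorem wk_aux [Finite L] (h : Reps D N g) {ls : List (List ℕ)} (hl : ∀ w ∈ ls, ev g w ∈ L) {A : Set X}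
    {M F U S s : ℕ} {Y : Finset (Set X)} (hU : D.set U ∈ orbIn L A) (hY : (Y : Set (Set X)) ⊆ orbIn L A)
    (hS : ∀ u, D.set u ∈ Y → S.testBit (Nat.land u (full n) % M) = true) (hc : wk N n M ls F U S s = true) :
    #Y + s ≤ (orbIn L A).ncard := by
  classical
  have h0 : #Y ≤ (orbIn L A).ncard := Set.ncard_coe_finset Y ▸ Set.ncard_le_ncard hY (orbIn_finite L A)
  induction F generalizing U S s Y with
  | zero => rwa [show s = 0 from beq_iff.1 hc]
  | succ j ih =>
    rcases s with _ | s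
    · exact h0
    have e : wk N n M ls (j + 1) U S (s + 1) = force (Nat.land U (full n) % M) fun c =>
      forceS (imgW N (nat_lit 1) (nth [] ls (Nat.mod (Nat.mod (Nat.mul j (Nat.add c j)) (nat_lit 1009)) (llen ls))) U)
        fun U' => Bool.rec (forceS (S ||| Nat.shiftLeft (nat_lit 1) c) fun S' => wk N n M ls j U' S' s)
          (wk N n M ls j U' S (s + 1)) (tb S c) := rfl
    rw [e, force_eq, forceS_eq, forceS_eq, tb_eq, one_shl] at hc
    generalize Nat.mod _ (llen ls) = t at hc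
    have h1 : D.set (imgW N (nat_lit 1) (nth [] ls t) U) ∈ orbIn L A := by
      obtain ⟨k, hk, e⟩ := hU
      refine ⟨_, L.mul_mem (x := ev g (nth [] ls t)) ?_ hk, by rw [mul_smul, e, h.smul_set]⟩
      rcases nth_mem_or [] ls t with a | a
      exacts [hl _ a, by rw [a]; exact L.one_mem]
    cases c : S.testBit (Nat.land U (full n) % M) <;> rw [c] at hc
    · have h2 : D.set U ∉ Y := fun a => absurd ((hS U a).symm.trans c) (by simp)
      have h3 : ((insert (D.set U) Y : Finset (Set X)) : Set (Set X)) ⊆ orbIn L A := by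
        rw [coe_insert]; exact Set.insert_subset hU hY
      have := ih h1 h3 (fun u hu => by
        rw [Nat.testBit_or, Bool.or_eq_true]
        rcases mem_insert.1 hu with a | a
        · rw [land_full_eq a]; exact Or.inr Nat.testBit_two_pow_self
        · exact Or.inl (hS u a)) hc (Set.ncard_coe_finset _ ▸ Set.ncard_le_ncard h3 (orbIn_finite L A))
      rw [card_insert_of_notMem h2] at this
      omega
    · exact ih h1 hY hS hc h0

theorem wk_sound [Finite L] (h : Reps D N g) {ls : List (List ℕ)} (hl : ∀ w ∈ ls, ev g w ∈ L) {M F U s : ℕ}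
    (hc : wk N n M ls F U 0 s = true) : s * Nat.card (stabIn L (D.set U)) ≤ Nat.card L := by
  rw [card_eq_orb_mul L (D.set U)]
  exact Nat.mul_le_mul_right _ (by simpa using wk_aux h hl (Y := ∅) ⟨1, L.one_mem, one_smul _ _⟩ (by simp) (by simp) hc)

theorem eq_of_lt_two {S : Subgroup G} [Finite S] (h : H ≤ S) (hc : Nat.card S < 2 * Nat.card H) : H = S := by
  obtain ⟨k, e⟩ := card_dvd_of_le h
  have h0 : 0 < Nat.card S := Nat.card_pos
  refine eq_of_le_of_card_ge h ?_
  rcases k with _ | _ | k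
  · omega
  · omega
  · rw [e, mul_comm] at hc; exact absurd (Nat.lt_of_mul_lt_mul_right hc) (by omega)

/-- the invariant sets through `i` have many images; fewer are needed for the sets on the list -/
noncomputable def idxOK (N : List Net) (n M F : ℕ) (ls ws : List (List ℕ)) (k : ℕ) (Rs : List ℕ) (O i c m : ℕ)
    (Us : List ℕ) : Bool :=
  Bool.rec false (uniOK N n ws k Rs O fun U => Bool.rec true (Bool.rec true (Bool.rec
    (wk N n M ls F U (nat_lit 0) (Nat.succ m)) (wk N n M ls F U (nat_lit 0) (Nat.succ (Nat.div m (nat_lit 2))))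
      (lany (Nat.beq U) Us)) (Nat.beq (Nat.mod c (popF n U)) (nat_lit 0))) (tb U i))
    (Nat.ble (Nat.succ i) n)

theorem idx [Finite L] (h : Reps D N g) (hn : n < 16777215) (hH : H ≤ L) {ls ws : List (List ℕ)}
    (hl : ∀ w ∈ ls, ev g w ∈ L) (hw : clo g ws ≤ H) {M F k O i c m : ℕ} {Rs Us : List ℕ}
    (hO : ∀ x ∈ L, x • D.pt i ∈ D.set O) (h1 : Nat.card H = c) (h2 : Nat.card L = m * c)
    (hc : idxOK N n M F ls ws k Rs O i c m Us = true) : ∃ U ∈ Us, H = stabIn L (D.set U) := by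
  have := finite_of_le hH
  have h0 : 0 < c := h1 ▸ Nat.card_pos
  rw [idxOK, brec_and, ble_iff] at hc
  obtain ⟨U, h3, h4⟩ := uni_sound h (clo_le.1 hw) (S := orbIn H (D.pt i))
    (by rintro q hq _ ⟨x, hx, rfl⟩; exact ⟨_, H.mul_mem hq hx, mul_smul _ _ _⟩)
    (by rintro _ ⟨x, hx, rfl⟩; exact hO x (hH hx)) hc.2
  have h5 : H ≤ stabIn L (D.set U) := fun x hx => ⟨hH hx, by
    rw [h4, orbIn_eq]; exact smul_orbit (⟨x, hx⟩ : H) _⟩
  rw [brec_imp, brec_imp, tb_eq, ← Dom.pt_mem_set (D := D) hc.1, beq_iff, ← ncard_popF D hn, h4] at h3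
  replace h3 := h3 ⟨1, H.one_mem, one_smul _ _⟩ (Nat.mod_eq_zero_of_dvd ⟨_, h1 ▸ card_eq_orb_mul H _⟩)
  cases e : lany (Nat.beq U) Us <;> rw [e] at h3 <;> have h6 := wk_sound h hl h3 <;> rw [h2] at h6
  · have := Nat.mul_le_mul_left (m + 1) (h1 ▸ card_le_of_le h5)
    exact absurd (Nat.le_of_mul_le_mul_right (this.trans h6) h0) (by omega)
  · obtain ⟨V, a, b⟩ := lany_iff.1 e
    refine ⟨V, a, beq_iff.1 b ▸ eq_of_lt_two h5 (lt_of_not_ge fun t => ?_)⟩
    have := (Nat.mul_le_mul_left _ t).trans h6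
    rw [← mul_assoc, h1] at this
    exact absurd (Nat.le_of_mul_le_mul_right this h0) (by rw [show Nat.div m (nat_lit 2) = m / 2 from rfl]; omega)

theorem inv_of_exact {X' : Type*} [MulAction G X'] {n' : ℕ} {D' : Dom X' n'} {N' : List Net} {c : List Lvl}
    (hE : Exact D' N' g c L) (h : Reps D N g) {O i : ℕ} (hi : i < n) (h1 : closedW N (cgens c) O = true)
    (h2 : tb O i = true) : ∀ x ∈ L, x • D.pt i ∈ D.set O := fun _ hx =>
  h.closedW h1 (hE.eq_clo.ge hx) ▸ Set.smul_mem_smul_set ((Dom.pt_mem_set hi).2 (tb_eq _ _ ▸ h2))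

theorem eq_of_exact {X' : Type*} [MulAction G X'] {n' : ℕ} {D' : Dom X' n'} {N' : List Net} {c : List Lvl}
    {A : Subgroup G} (hE : Exact D' N' g c A) (h : Reps D N g) [Finite L] (hA : A ≤ L) {U : ℕ}
    (h1 : closedW N (cgens c) U = true) (h2 : H = stabIn L (D.set U)) (h3 : Nat.card H ≤ Nat.card A) : H = A := by
  subst h2
  exact (eq_of_le_of_card_ge (le_inf hA (hE.eq_clo.ge.trans (h.closedW h1))) h3).symm

/-- a conjugate of `H` contains the `p`-group -/
theorem conj_ge [Finite L] (hH : H ≤ L) {p c m : ℕ} (hp : p.Prime) (h1 : Nat.card H = c) (h2 : Nat.card L = m * c)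
    (hm : ¬ p ∣ m) (hQ : Q ≤ L) (hq : IsPGroup p Q) :
    ∃ x ∈ L, ∃ H', Cj x H' H ∧ H' ≤ L ∧ Nat.card H' = c ∧ Q ≤ H' := by
  obtain ⟨x, hx, e⟩ := exists_conj_le hH hp (by rw [h2, h1, mul_comm]) hm hQ hq
  have h3 : Cj x (MulAut.conj x⁻¹ • H) H := by simpa using (cj_smul x⁻¹ H).symm
  exact ⟨x, hx, _, h3, fun k a => (Cj.self hx k).2 (hH ((h3 k).1 a)), h3.card.symm.trans h1,
    fun k a => (h3 k).2 (e k a)⟩

/-- the possible orders of the normaliser -/
def nrmL (p r b : ℕ) : List ℕ := (List.range (b + 1)).flatMap fun a =>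
  ((List.range p).filter fun j => j ∣ p - 1 ∧ p * r / (a * j) % p = 1 ∧ a * j ∣ p * r).map (a * ·)

theorem norm_count [Finite G] {x : G} (hx : x ∈ H) {p r b : ℕ} (hp : p.Prime) (ho : orderOf x = p)
    (hH : Nat.card H = p * r) (hr : ¬ p ∣ r) (hc : Nat.card (centralizer {x}) ≤ b) :
    Nat.card ↥(H ⊓ normalizer (zpowers x : Set G)) ∈ nrmL p r b := by
  have := Fact.mk hp
  have h0 : zpowers x ≤ H := zpowers_le.2 hx
  have h1 : Nat.card ((zpowers x).subgroupOf H) = p := (card_sub_of h0).trans ((Nat.card_zpowers x).trans ho)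
  let P : Sylow p H := Sylow.ofCard _ (by
    rw [h1, hH, Nat.factorization_mul hp.ne_zero (fun e : r = 0 => hr (e ▸ dvd_zero p)), Finsupp.add_apply,
      hp.factorization_self, Nat.factorization_eq_zero_of_not_dvd hr, pow_one])
  have h2 := card_sylow_modEq_one p H
  rw [P.card_eq_index_normalizer] at h2
  have h3 := ((zpowers x).subgroupOf H).normalizerMonoidHom.ker.card_mul_index
  rw [index_ker, normalizerMonoidHom_ker, card_sub_of (centralizer_le_normalizer _)] at h3
  have := isCyclic_of_prime_card h1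
  have h4 := ((zpowers x).subgroupOf H).normalizerMonoidHom.range.card_subgroup_dvd_card
  rw [IsCyclic.card_mulAut, h1, Nat.totient_prime hp] at h4
  have h5 := (normalizer ((zpowers x).subgroupOf H : Set H)).card_mul_index
  simp only [nrmL, List.mem_flatMap, List.mem_range, List.mem_map, List.mem_filter, decide_eq_true_eq,
    Nat.lt_succ_iff]
  refine ⟨_, le_trans (Nat.card_le_card_of_injective (fun y : centralizer ((zpowers x).subgroupOf H : Set H) =>
    (⟨y.1.1, mem_centralizer_singleton_iff.2 (congrArg Subtype.val (y.2 ⟨x, hx⟩ (mem_zpowers x))).symm⟩ :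
      centralizer {x})) fun y z e => Subtype.ext (Subtype.ext (congrArg Subtype.val e :))) hc, _, ⟨lt_of_le_of_lt
    (Nat.le_of_dvd (Nat.sub_pos_of_lt hp.one_lt) h4) (Nat.sub_lt hp.pos one_pos), h4, ?_, ?_⟩, ?_⟩
  · rw [h3, ← hH, ← h5, Nat.mul_div_cancel_left _ Nat.card_pos]
    exact Eq.trans h2 (Nat.mod_eq_of_lt hp.one_lt)
  · rw [h3, ← hH, ← h5]; exact dvd_mul_right _ _
  · rw [h3, ← subgroupOf_normalizer_eq h0, ← inf_subgroupOf_left, card_sub_of inf_le_left]

theorem norm_le [Finite G] (hH : H ≤ L) {x : G} (hx : x ∈ H) {p r r' b : ℕ} (hp : p.Prime) (ho : orderOf x = p)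
    (h1 : Nat.card H = p * r) (hr : ¬ p ∣ r) (h2 : Nat.card L = p * r') (hr' : ¬ p ∣ r')
    (hc : Nat.card (centralizer {x}) ≤ b) (h : ∀ s ∈ nrmL p r' b, ∀ t ∈ nrmL p r b, s ≤ t) :
    L ⊓ normalizer (zpowers x : Set G) ≤ H :=
  (eq_of_le_of_card_ge (inf_le_inf_right _ hH) (h _ (norm_count (hH hx) hp ho h2 hr' hc) _
    (norm_count hx hp ho h1 hr hc))).ge.trans inf_le_left

end CF.Srg
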