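import Cfsg.Agent.Srg.Asm
import Cfsg.Agent.Bt.Part

/-! The point stabiliser of a rank three group acting on the graph. -/

set_option autoImplicit false

namespace CF.Srg

open CF.Comp Finset MulAction
open scoped Pointwise _root_.Classical

/-- the orbits of `K` are `a`, its neighbours and the rest -/
structure R3 (K : Type*) {Ω : Type*} [Group K] [MulAction K Ω] (Γ : SimpleGraph Ω) (a b c : Ω) : Prop where
  inv : Inv K Γ
  fix : ∀ k : K, k • a = a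
  ob : ∀ x, x ∈ orbit K b ↔ Γ.Adj a x
  oc : ∀ x, x ∈ orbit K c ↔ x ≠ a ∧ ¬ Γ.Adj a x

theorem setup {Ω : Type*} [Fintype Ω] (G : Subgroup (Equiv.Perm Ω)) [IsPretransitive G Ω] (a b c : Ω) {k m : ℕ}
    (hb : (orbit (stabilizer G a) b).ncard = k) (hc : (orbit (stabilizer G a) c).ncard = m)
    (hn : Fintype.card Ω = 1 + k + m) (h1 : k ≠ 1) (h2 : m ≠ 1) (h3 : k ≠ m) {K : Type*} [Group K]
    (ε : K ≃* stabilizer G a) : ∃ (_ : MulAction K Ω) (Γ : SimpleGraph Ω) (l μ : ℕ), SR Γ k l μ ∧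
      (∀ (g : G) x y, Γ.Adj (g • x) (g • y) ↔ Γ.Adj x y) ∧ R3 K Γ a b c ∧ (orbit K b).ncard = k ∧
      (orbit K c).ncard = m := by
  obtain ⟨Γ, l, μ, h, hG, nb, nc⟩ := rank3 G a b c hb hc hn h1 h2 h3
  letI : MulAction K Ω := MulAction.compHom Ω ε.toMonoidHom
  have e : ∀ x : Ω, orbit K x = orbit (stabilizer G a) x := fun x => Set.ext fun y =>
    ⟨fun ⟨t, e⟩ => ⟨ε t, e⟩, fun ⟨t, e⟩ => ⟨ε.symm t, (congrArg (· • x) (ε.apply_symm_apply t)).trans e⟩⟩
  refine ⟨inferInstance, Γ, l, μ, h, hG, ⟨fun t => hG (ε t), fun t => (ε t).2, fun x => e b ▸ (nb x).symm,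
    fun x => e c ▸ ⟨fun hx => ⟨?_, fun t => h3 ?_⟩, fun hx => nc x hx.1 hx.2⟩⟩, e b ▸ hb, e c ▸ hc⟩
  · rintro rfl
    refine h2 ?_
    rw [← hc, ← orbit_eq_iff.2 hx, Set.ncard_eq_one]
    exact ⟨x, Set.eq_singleton_iff_unique_mem.2 ⟨mem_orbit_self _, by rintro _ ⟨t, rfl⟩; exact t.2⟩⟩
  · rw [← hb, ← hc, ← orbit_eq_iff.2 hx, ← orbit_eq_iff.2 ((nb x).1 t)]

variable {K Ω X : Type*} [Group K] [MulAction K Ω] [MulAction K X] {Γ : SimpleGraph Ω} {a b c y : Ω}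
  {n : ℕ} {D : Dom X n} {N : List Net} {g : ℕ → K} {row : ℕ → ℕ} {k l μ : ℕ}

theorem R3.move (h : R3 K Γ a b c) {b' c' : Ω} (hb : b' ∈ orbit K b) (hc : c' ∈ orbit K c) : R3 K Γ a b' c' :=
  ⟨h.inv, h.fix, by rw [orbit_eq_iff.2 hb]; exact h.ob, by rw [orbit_eq_iff.2 hc]; exact h.oc⟩

theorem R3.ab (h : R3 K Γ a b c) : Γ.Adj a b := (h.ob b).1 (mem_orbit_self b)

theorem R3.ac (h : R3 K Γ a b c) : c ≠ a ∧ ¬ Γ.Adj a c := (h.oc c).1 (mem_orbit_self c)

theorem R3.bb (h : R3 K Γ a b c) (hΓ : SR Γ k l μ) : {z | z ∈ orbit K b ∧ Γ.Adj b z}.ncard = l := by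
  simp only [h.ob]; exact hΓ.adj a b h.ab

theorem R3.cb (h : R3 K Γ a b c) (hΓ : SR Γ k l μ) : {z | z ∈ orbit K b ∧ Γ.Adj c z}.ncard = μ := by
  simp only [h.ob]; exact hΓ.nadj a c h.ac.1.symm h.ac.2

theorem R3.bc [Fintype Ω] (h : R3 K Γ a b c) (hΓ : SR Γ k l μ) {s : ℕ} (hs : s + l + 1 = k) :
    {z | z ∈ orbit K c ∧ Γ.Adj b z}.ncard = s := by
  have := hΓ.far a b
  rw [hΓ.adj a b h.ab, if_pos h.ab] at this
  simp only [h.oc]; omega

theorem R3.cc [Fintype Ω] (h : R3 K Γ a b c) (hΓ : SR Γ k l μ) {s : ℕ} (hs : s + μ = k) :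
    {z | z ∈ orbit K c ∧ Γ.Adj c z}.ncard = s := by
  have := hΓ.far a c
  rw [hΓ.nadj a c h.ac.1.symm h.ac.2, if_neg h.ac.2] at this
  simp only [h.oc]; omega

theorem R3.nb (h : R3 K Γ a b c) : b ∉ orbit K c := fun e => ((h.oc b).1 e).2 h.ab

theorem R3.nc (h : R3 K Γ a b c) : c ∉ orbit K b := fun e => h.ac.2 ((h.ob c).1 e)

theorem R3.cov (h : R3 K Γ a b c) : ∀ x, x ≠ a → x ∉ orbit K b → x ∈ orbit K c :=
  fun x e e' => (h.oc x).2 ⟨e, mt (h.ob x).2 e'⟩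

theorem R3.cov' (h : R3 K Γ a b c) : ∀ x, x ≠ a → x ∉ orbit K c → x ∈ orbit K b :=
  fun x e e' => not_not.1 fun t => e' (h.cov x e t)

/-- the points related to `i0` as `i` is lie in `O` -/
noncomputable def sideOK (row : ℕ → ℕ) (n d i0 i O : ℕ) : Bool :=
  force (row i0) fun r => Bool.rec false (allBin (fun j => Bool.rec (Bool.rec (Bool.rec (tb r j)
    (Bool.rec true false (tb r j)) (tb r i)) true (Nat.beq j i0)) true (tb O j)) n d (nat_lit 0))
    (lall (fun t => t) [Nat.ble (Nat.succ i0) n, Nat.ble (Nat.succ i) n, Bool.rec true false (Nat.beq i i0)])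

theorem side_sound (hP : Pres D (⊤ : Subgroup K) row) {d i0 i O : ℕ} (hd : n ≤ 2 ^ d)
    (hc : sideOK row n d i0 i O = true) (h0 : ∀ k : K, k • D.pt i0 = D.pt i0) (k : K) : k • D.pt i ∈ D.set O := by
  simp only [sideOK, force_eq, brec_and, lall_iff, List.forall_mem_cons, ble_iff, brec_not, beq_false_iff,
    Nat.succ_le_iff] at hc
  obtain ⟨⟨c0, c1, c2, -⟩, c⟩ := hc
  obtain ⟨j, hj, e⟩ := hP.cl k trivial i c1
  have h1 := allBin_spec c hd j hj
  rw [brec_or, brec_or, tb_eq, tb_eq, tb_eq, beq_iff, hP.rel k trivial i c1 i0 c0 j hj i0 c0 e (h0 k)] at h1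
  rw [e, Dom.pt_mem_set hj]
  refine h1.resolve_right ?_
  rintro (rfl | h1)
  · exact c2 (D.inj _ c1 _ c0 (MulAction.injective k (e.trans (h0 k).symm)))
  · revert h1; cases (row i0).testBit j <;> simp

theorem finish [Fintype Ω] [Finite K] (h : Reps D N g) (hn' : n < 16777215) (hP : Pres D (⊤ : Subgroup K) row)
    (hΓ : Inv K Γ) {d i0 i1 i2 O1 O2 : ℕ} (hd : n ≤ 2 ^ d) (hc : asmOK row n d i0 i1 i2 O1 O2 = true)
    (hn : Fintype.card Ω = n) (ha : ∀ k : K, k • a = a) (h0 : ∀ k : K, k • D.pt i0 = D.pt i0)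
    (cov : ∀ x, x ≠ a → x ∉ orbit K b → x ∈ orbit K y) (h1 : Cor K b (D.pt i1) ∧ orbit K (D.pt i1) = D.set O1)
    (a1 : Γ.Adj a b ↔ (row i0).testBit i1 = true) (a2 : Γ.Adj a y ↔ (row i0).testBit i2 = true)
    (t1 : Nb K Γ b (D.pt i1) b = D.set (Nat.land (row i1) O1)) (t2 : Nb K Γ b (D.pt i1) y = D.set (Nat.land (row i2) O1))
    {gs ws : List (List ℕ)} {q q' s s' : ℕ} {Rs : List ℕ} (ho : orbOK N n gs q i2 O2 s = true)
    (hs : (orbit K y).ncard = s) (hw : lall (fixW N i2) ws = true) (hs' : {z | z ∈ orbit K y ∧ Γ.Adj y z}.ncard = s')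
    (hdet : detOK N n ws q' Rs O2 s' (Nat.land (row i2) O2) = true) : Mdl Γ row n :=
  have h2 := cor_orb h hn' ho hs (fix_of_nb hP hΓ hd hc h1.1 h1.2 t2)
  assemble hP hΓ hd hc hn ha h0 cov h1.1 h1.2 h2.1 h2.2 a1 a2 t1 t2
    (step2 h hn' hΓ h2.1 h2.2 (asm_spec hd hc).1.2.2.1 hw hs' hdet)

theorem fix_of_set {i : ℕ} (hi : i < n) {k : K} (h : k • D.set (Nat.shiftLeft (nat_lit 1) i) =
    D.set (Nat.shiftLeft (nat_lit 1) i)) : k • D.pt i = D.pt i := by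
  rwa [D.set_shl hi, Set.smul_set_singleton, Set.singleton_eq_singleton_iff] at h

theorem evs_stab {G : Type*} [Group G] [MulAction G X] {f : ℕ → G} (h : Reps D N f) {ws : List (List ℕ)} {i : ℕ}
    (hi : i < n) (hw : lall (fixW N i) ws = true) (j : ℕ) : evs f ws j ∈ stabIn (⊤ : Subgroup G) (D.pt i) :=
  Bt.evs_mem (H := stabIn ⊤ (D.pt i)) (fun w a => ⟨trivial, h.fixW hi (lall_iff.1 hw w a)⟩) j

/-- the planes of the images of the points -/
noncomputable def imgP (ν : Net) (n d : ℕ) : List ℕ := tabl (fun t => ν.bwd (nat_lit 1) (plane n t)) d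

theorem column_imgP {ν : Net} {d j : ℕ} (hν : ν.wf (2 ^ n) = true) (hd : n ≤ 2 ^ d) (hj : j < n) :
    column (imgP ν n d) j = ν.perm j := Nat.eq_of_testBit_eq fun t => by
  have h1 := (Net.supp hν).lt hj
  rw [testBit_column]
  by_cases ht : t < d
  · have := (Net.img_bwd (isRepl_one n) hν (plane n t)).1 _ h1 0 (by omega)
    simp only [mul_zero, add_zero, pinv_app, testBit_plane, h1, decide_true, Bool.true_and] at this
    rw [imgP, nth_tabl _ _ ht]; exact this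
  · rw [nth_of_le _ (by rw [imgP, length_tabl]; omega), Nat.zero_testBit, Nat.testBit_lt_two_pow
      ((h1.trans_le hd).trans_le (Nat.pow_le_pow_right (by norm_num) (not_lt.1 ht)))]

/-- the nets map the values of the table as they map the numbers -/
noncomputable def mapF (f : ℕ → ℕ) (n d : ℕ) (ν ν' : Net) : Bool :=
  forceL (imgP ν n d) fun P => allBin (fun j => Nat.beq (Bt.forceS (f j) (ν'.fwd (nat_lit 1))) (force (column P j) f))
    n d (nat_lit 0)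

theorem mapF_spec {f : ℕ → ℕ} {d j : ℕ} {ν ν' : Net} (hν : ν.wf (2 ^ n) = true) (hd : n ≤ 2 ^ d)
    (h : mapF f n d ν ν' = true) (hj : j < n) : ν'.fwd 1 (f j) = f (ν.perm j) := by
  rw [mapF, forceL_eq] at h
  have := allBin_spec h hd j hj
  rwa [Bt.forceS_eq, force_eq, beq_iff, column_imgP hν hd hj] at this

theorem pf_mem_mapF {d : ℕ} (hd : n ≤ 2 ^ d) (hw : Wf n N) (h : ∀ ν ∈ N, mapF row n d ν ν = true) (i : ℕ) :
    pf N i ∈ autG row n := by
  rcases nth_mem_or Net.nil N i with e | e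
  · refine ⟨hw.supp i, fun a ha j hj => ?_⟩
    have h5 := (Net.img_fwd (isRepl_one n) (hw i) (row j)).1 a ha 0 (by omega)
    simp only [mul_zero, add_zero] at h5
    rw [pf, ← mapF_spec (hw i) hd (h _ e) hj]; exact h5
  · rw [pf, e]; exact one_mem _

/-- the check for the action on a domain of subsets -/
noncomputable def incF (f : ℕ → ℕ) (n d m : ℕ) (N N' : List Net) : Bool :=
  Bool.rec false (Bool.rec false (allFrom (fun j => mapF f n d (nth Net.nil N j) (nth Net.nil N' j)) (nat_lit 0) (llen N))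
    (Nat.beq (llen N') (llen N))) (wfAll N' m)

theorem inc_mapF [DecidableEq X] (h : Reps D N g) {d m : ℕ} (hd : n ≤ 2 ^ d) {f : ℕ → ℕ} {N' : List Net}
    (hs : sorted (tabl f n) m = true) (hc : incF f n d m N N' = true) :
    Reps (D.inc (tabl f n) m (length_tabl f n).le hs) N' g := by
  rw [incF, brec_and, brec_and, beq_iff, allFrom_zero, llen_eq, llen_eq] at hc
  refine h.inc_of_forall _ hs (wf_of_wfAll hc.1) hc.2.1 fun j hj => allFrom_zero.2 fun p hp => ?_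
  rw [beq_iff, force_eq, Net.app_eq (h.wf j) hp, nth_tabl _ _ hp, nth_tabl _ _ ((Net.supp (h.wf j)).lt hp)]
  exact mapF_spec (h.wf j) hd (hc.2.2 j hj) hp

end CF.Srg
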