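import Cfsg.Agent.Srg.R3
import Cfsg.Agent.Srg.RuD
import Cfsg.Agent.Comp.Ru.Graph

/-! The kernel checks for the Rudvalis graph. -/

set_option autoImplicit false
set_option maxRecDepth 1000000

namespace CF.Srg.Ru

open CF.Comp

/-- a Sylow 2-subgroup -/
noncomputable def Pw : List (List ℕ) := [[13], [15], [17], [19], [21], [23], [25], [27], [29], [31], [33], [35]]

theorem c3 : Bt.evsOK Ru.N 4060 12 X ws = true := by decide +kernel
theorem c4 : lall (fixW Ru.N 0) ws = true := by decide +kernel
theorem c5 : Bt.pcOK (sameW X 4060 12) 2 Pw pc = true := by decide +kernel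
theorem c6 : Bt.pcOK (sameW X 4060 12) 5 [[1], [3]] [([], [[1]]), ([], [])] = true := by decide +kernel
theorem c7 : asmOK Ru.row 4060 12 0 36 2404 O1 O2 = true := by decide +kernel
theorem c8 : sideOK Ru.row 4060 12 0 36 O1 = true := by decide +kernel
theorem c9 : subOK X 4060 Pw 1 [36, 37, 38, 40, 76, 93, 402, 645] O1 36 20480 [Nat.shiftLeft (nat_lit 1) 36] = true := by decide +kernel
theorem d1 : orbOK X 4060 [[1], [3], [5], [7]] 5 36 O1 1755 = true := by decide +kernel
theorem d2 : orbOK X 4060 [[1], [3], [5], [7]] 4 2404 O2 2304 = true := by decide +kernel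
theorem d3 : detOK X 4060 [[5], [7]] 9 [36, 37, 38, 40, 402] O1 1024 (Nat.land (Ru.row 36) O1) = true := by decide +kernel
theorem d4 : detOK X 4060 [[9], [11]] 10 [1, 2, 3, 5, 24, 2404] O2 1328 (Nat.land (Ru.row 2404) O2) = true := by decide +kernel
theorem d5 : cellOK X 4060 [[1], [3]] 4 awl 36 O1 (Nat.land (Ru.row 36) O1) asz aB = true := by decide +kernel
theorem d6 : allFrom (consOK aB asz 75 1024 48 acs) 0 40 = true := by decide +kernel
theorem d6b : allFrom (consOK aB asz 75 1024 48 acs) 40 35 = true := by decide +kernel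
theorem d7 : forceL (cells X [[1], [3]] 4 awl 36) (fun Os => dfs asz acs (Int.ofNat 975) (tgt X [[], [8, 2, 5], [8, 36, 19], [20, 26, 7]] [Nat.land (Ru.row 2404) O1, U0, U1, U2, U3]) Os 0 0 0) = true := by decide +kernel
theorem w0 : walk X 4060 65521 wk0 U0 0 = true := by decide +kernel
theorem w1 : walk X 4060 65521 wk1 U1 0 = true := by decide +kernel
theorem w2 : walk X 4060 65521 wk2 U2 0 = true := by decide +kernel
theorem w3 : walk X 4060 65521 wk3 U3 0 = true := by decide +kernel

end CF.Srg.Ru
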